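import Mathlib

set_option autoImplicit false

namespace Cfsg.Agent.Lib.helper25.S1455Q1

/-- (Q1) of S1455: in `R₀ × R₁` with `|R₀| = p` and `R₁` cyclic, a subgroup of exponent `p` has
order at most `p ^ 2`. -/
theorem narrow_count {R : Type*} [Group R] [Finite R] (p : ℕ) [Fact p.Prime] (R₀ R₁ B : Subgroup R)
    (h0 : Nat.card R₀ = p) (h1 : IsCyclic R₁) (hc : ∀ a ∈ R₀, ∀ b ∈ R₁, a * b = b * a)
    (hB : B ≤ R₀ ⊔ R₁) (hBp : ∀ b ∈ B, b ^ p = 1) : Nat.card B ≤ p ^ 2 := by
  classical
  have hp : p.Prime := Fact.out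
  have hcomm0 : ∀ (m : R₀) (n : R₁), Commute (R₀.subtype m) (R₁.subtype n) :=
    fun a c => hc a a.2 c c.2
  let F : R₀ × R₁ →* R := MonoidHom.noncommCoprod R₀.subtype R₁.subtype hcomm0
  have hrange : F.range = R₀ ⊔ R₁ := by
    have h7 := MonoidHom.noncommCoprod_range R₀.subtype R₁.subtype hcomm0
    rw [Subgroup.range_subtype, Subgroup.range_subtype] at h7
    exact h7
  letI := Fintype.ofFinite R₁
  let K : Finset R₁ := Finset.univ.filter (fun c => c ^ p = 1)
  have hK : K.card ≤ p := IsCyclic.card_pow_eq_one_le hp.pos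
  have hex : ∀ b : B, ∃ x : R₀ × R₁, x.2 ∈ K ∧ F x = b := by
    intro b
    have hb : (b : R) ∈ F.range := by
      rw [hrange]
      exact hB b.2
    obtain ⟨⟨a, c⟩, hac⟩ := hb
    refine ⟨(a, c), ?_, hac⟩
    have h2 : (a : R) ^ p = 1 := by
      have h5 := pow_card_eq_one' (G := R₀) (x := a)
      rw [h0] at h5
      exact_mod_cast congrArg Subtype.val h5
    have h3 : ((a : R) * (c : R)) ^ p = 1 := by
      have h6 : F (a, c) = (a : R) * c := rfl
      rw [← h6, hac]
      exact hBp b b.2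
    have h4 : (c : R) ^ p = 1 := by
      have hcomm : Commute (a : R) (c : R) := hc a a.2 c c.2
      rw [hcomm.mul_pow, h2, one_mul] at h3
      exact h3
    simp only [K, Finset.mem_filter, Finset.mem_univ, true_and]
    exact Subtype.ext (by simpa using h4)
  choose g hg1 hg2 using hex
  have hinj : Function.Injective (fun b : B => (((g b).1, ⟨(g b).2, hg1 b⟩) : R₀ × K)) := by
    intro b b' h
    have h' : ((g b).1, (⟨(g b).2, hg1 b⟩ : K)) = ((g b').1, (⟨(g b').2, hg1 b'⟩ : K)) := h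
    obtain ⟨h1', h2''⟩ := Prod.mk.inj h'
    have h2' : (g b).2 = (g b').2 := congrArg Subtype.val h2''
    apply Subtype.ext
    rw [← hg2 b, ← hg2 b']
    congr 1
    exact Prod.ext h1' h2'
  calc Nat.card B ≤ Nat.card (R₀ × K) := Nat.card_le_card_of_injective _ hinj
    _ = Nat.card R₀ * Nat.card K := Nat.card_prod _ _
    _ ≤ p * p := by
        rw [h0]
        apply Nat.mul_le_mul_left
        rw [Nat.card_eq_fintype_card, Fintype.card_coe]
        exact hK
    _ = p ^ 2 := (pow_two p).symm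

end Cfsg.Agent.Lib.helper25.S1455Q1
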