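import Cfsg.Agent.Lib.helper25.FusionStab
import Cfsg.Agent.Lib.helper25.AlperinGoldschmidt

set_option autoImplicit false
open Cfsg Cfsg.FusionSystem

namespace Cfsg.Agent.Lib.helper25

/-- In a finite 2-group with a cyclic subgroup `⟨c⟩` preserved by every automorphism and such that
the product of the inverse of an element outside with an element outside lies in `⟨c⟩`, every
automorphism of odd order is trivial. -/
theorem aut_eq_one_of_cyclic_index_two {P : Type*} [Group P] [Finite P] (hP : IsPGroup 2 P) (c : P)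
    (h1 : ∀ α : MulAut P, α c ∈ Subgroup.zpowers c)
    (h2 : ∀ x y : P, x ∉ Subgroup.zpowers c → y ∉ Subgroup.zpowers c →
      x⁻¹ * y ∈ Subgroup.zpowers c)
    (α : MulAut P) {m : ℕ} (hm : Odd m) (hα : α ^ m = 1) : α = 1 := by
  have hC : ∀ x : Subgroup.zpowers c, α x ∈ Subgroup.zpowers c := by
    rintro ⟨x, hx⟩
    obtain ⟨k, rfl⟩ := Subgroup.mem_zpowers_iff.1 hx
    show α (c ^ k) ∈ Subgroup.zpowers c
    rw [map_zpow]
    exact Subgroup.zpow_mem _ (h1 α) k
  have hinj : Function.Injective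
      ((α.toMonoidHom.comp (Subgroup.zpowers c).subtype).codRestrict (Subgroup.zpowers c) hC) := by
    intro a b hab
    have h3 : α (a : P) = α (b : P) := congrArg Subtype.val hab
    exact Subtype.ext (α.injective h3)
  have hbij : Function.Bijective
      ((α.toMonoidHom.comp (Subgroup.zpowers c).subtype).codRestrict (Subgroup.zpowers c) hC) :=
    ⟨hinj, Finite.injective_iff_surjective.1 hinj⟩
  obtain ⟨β, hβ⟩ : ∃ β : MulAut (Subgroup.zpowers c), ∀ x : Subgroup.zpowers c,
      ((β x : Subgroup.zpowers c) : P) = α x := ⟨MulEquiv.ofBijective _ hbij, fun x => rfl⟩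
  have hβpow : ∀ k : ℕ, ∀ x : Subgroup.zpowers c,
      (((β ^ k) x : Subgroup.zpowers c) : P) = (α ^ k) x := by
    intro k
    induction k with
    | zero => intro x; simp
    | succ k ih =>
      intro x
      rw [pow_succ, pow_succ, MulAut.mul_apply, MulAut.mul_apply, ih, hβ]
  have hβm : β ^ m = 1 := by
    ext x
    rw [hβpow m x, hα]
    rfl
  have hm2 : Nat.Coprime m 2 := Nat.coprime_two_right.2 hm
  have hβ1 : β = 1 := by
    have hCp : IsPGroup 2 (Subgroup.zpowers c) := hP.to_subgroup _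
    obtain ⟨a, ha⟩ := IsPGroup.iff_card.1 hCp
    have hcard : Nat.card (MulAut (Subgroup.zpowers c)) = Nat.totient (2 ^ a) := by
      rw [IsCyclic.card_mulAut, ha]
    have hpow2 : ∃ b : ℕ, Nat.totient (2 ^ a) = 2 ^ b := by
      rcases Nat.eq_zero_or_pos a with h0 | h0
      · exact ⟨0, by rw [h0]; simp⟩
      · exact ⟨a - 1, by rw [Nat.totient_prime_pow Nat.prime_two h0]; simp⟩
    obtain ⟨b, hb⟩ := hpow2
    have h3 : β ^ (2 ^ b) = 1 := by
      rw [← hb, ← hcard]
      exact pow_card_eq_one'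
    have h4 : orderOf β ∣ Nat.gcd m (2 ^ b) :=
      Nat.dvd_gcd (orderOf_dvd_of_pow_eq_one hβm) (orderOf_dvd_of_pow_eq_one h3)
    have h5 : Nat.gcd m (2 ^ b) = 1 := Nat.Coprime.pow_right b hm2
    rw [h5, Nat.dvd_one, orderOf_eq_one_iff] at h4
    exact h4
  have hfix : ∀ x ∈ Subgroup.zpowers c, α x = x := by
    intro x hx
    have h3 := hβ ⟨x, hx⟩
    rw [hβ1] at h3
    exact h3.symm
  ext x
  show α x = x
  by_cases hx : x ∈ Subgroup.zpowers c
  · exact hfix x hx
  · have hαx : α x ∉ Subgroup.zpowers c := by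
      intro h
      have h3 := hfix _ h
      exact hx (α.injective h3 ▸ h)
    exact aut_fix_of_coprime hP α hm2 hα (hfix _ (h2 x (α x) hx hαx))

/-- Under the same hypotheses the automorphism group is a 2-group. -/
theorem isPGroup_mulAut_of_cyclic_index_two {P : Type*} [Group P] [Finite P] (hP : IsPGroup 2 P)
    (c : P) (ha : ∀ y : P, orderOf y = orderOf c → y ∈ Subgroup.zpowers c)
    (hb : ∀ x z : P, x ∉ Subgroup.zpowers c → z ∉ Subgroup.zpowers c →
      x * z ∈ Subgroup.zpowers c) : IsPGroup 2 (MulAut P) := by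
  have h1 : ∀ α : MulAut P, α c ∈ Subgroup.zpowers c := fun α => ha _ (MulEquiv.orderOf_eq α c)
  have h2 : ∀ x y : P, x ∉ Subgroup.zpowers c → y ∉ Subgroup.zpowers c →
      x⁻¹ * y ∈ Subgroup.zpowers c := by
    intro x y hx hy
    by_contra hz
    have h3 := hb x (x⁻¹ * y) hx hz
    rw [mul_inv_cancel_left] at h3
    exact hy h3
  intro α
  have ho : orderOf α ≠ 0 := (orderOf_pos α).ne'
  obtain ⟨k, m, hm, hkm⟩ := Nat.exists_eq_two_pow_mul_odd ho
  refine ⟨k, ?_⟩
  apply aut_eq_one_of_cyclic_index_two hP c h1 h2 (α ^ 2 ^ k) hm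
  rw [← pow_mul, ← hkm, pow_orderOf_eq_one]

theorem isPGroup_mulAut_dihedral (k : ℕ) (hk : 2 ≤ k) :
    IsPGroup 2 (MulAut (DihedralGroup (2 ^ k))) := by
  have hne : NeZero (2 ^ k) := ⟨by positivity⟩
  have hP : IsPGroup 2 (DihedralGroup (2 ^ k)) := by
    apply IsPGroup.of_card (n := k + 1)
    rw [DihedralGroup.nat_card, pow_succ, mul_comm]
  have hmem : ∀ i : ZMod (2 ^ k), DihedralGroup.r i ∈
      Subgroup.zpowers (DihedralGroup.r 1 : DihedralGroup (2 ^ k)) := by
    intro i
    refine Subgroup.mem_zpowers_iff.2 ⟨(i.val : ℤ), ?_⟩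
    rw [zpow_natCast, DihedralGroup.r_one_pow, ZMod.natCast_zmod_val]
  have h4 : 4 ≤ 2 ^ k := by
    calc 4 = 2 ^ 2 := by norm_num
      _ ≤ 2 ^ k := Nat.pow_le_pow_right (by norm_num) hk
  apply isPGroup_mulAut_of_cyclic_index_two hP (DihedralGroup.r 1)
  · intro y hy
    rw [DihedralGroup.orderOf_r_one] at hy
    cases y with
    | r i => exact hmem i
    | sr i =>
      rw [DihedralGroup.orderOf_sr] at hy
      omega
  · intro x z hx hz
    cases x with
    | r i => exact absurd (hmem i) hx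
    | sr i =>
      cases z with
      | r j => exact absurd (hmem j) hz
      | sr j =>
        rw [DihedralGroup.sr_mul_sr]
        exact hmem _

theorem isPGroup_mulAut_quaternion (k : ℕ) (hk : 2 ≤ k) :
    IsPGroup 2 (MulAut (QuaternionGroup (2 ^ k))) := by
  have hne : NeZero (2 ^ k) := ⟨by positivity⟩
  have hP : IsPGroup 2 (QuaternionGroup (2 ^ k)) := by
    apply IsPGroup.of_card (n := k + 2)
    rw [Nat.card_eq_fintype_card, QuaternionGroup.card, pow_succ, pow_succ]
    ring
  have hmem : ∀ i : ZMod (2 * 2 ^ k), QuaternionGroup.a i ∈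
      Subgroup.zpowers (QuaternionGroup.a 1 : QuaternionGroup (2 ^ k)) := by
    intro i
    refine Subgroup.mem_zpowers_iff.2 ⟨(i.val : ℤ), ?_⟩
    rw [zpow_natCast, QuaternionGroup.a_one_pow, ZMod.natCast_zmod_val]
  have h4 : 4 ≤ 2 ^ k := by
    calc 4 = 2 ^ 2 := by norm_num
      _ ≤ 2 ^ k := Nat.pow_le_pow_right (by norm_num) hk
  apply isPGroup_mulAut_of_cyclic_index_two hP (QuaternionGroup.a 1)
  · intro y hy
    rw [QuaternionGroup.orderOf_a_one] at hy
    cases y with
    | a i => exact hmem i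
    | xa i =>
      rw [QuaternionGroup.orderOf_xa] at hy
      omega
  · intro x z hx hz
    cases x with
    | a i => exact absurd (hmem i) hx
    | xa i =>
      cases z with
      | a j => exact absurd (hmem j) hz
      | xa j =>
        rw [QuaternionGroup.xa_mul_xa]
        exact hmem _

variable {Ω : Type*} [Group Ω] {S : Subgroup Ω}

/-- If `Aut(S)` is a `p`-group then `Aut_F(S) = Inn(S)` in a saturated system. -/
theorem autGroup_top_eq_inn_of_isPGroup_mulAut [Finite S] {p : ℕ} [Fact p.Prime]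
    (F : FusionSystem S) (hF : F.IsSaturated p) (hA : IsPGroup p (MulAut S)) :
    F.autGroup S = Inn S := by
  obtain ⟨Q, hc, hfa, hrec⟩ := hF S le_rfl
  have hQ : Q = S := by
    apply Subgroup.eq_of_le_of_card_ge hfa.1
    rw [Cfsg.Agent.Lib.helper26.isConj_card F hc]
  subst hQ
  obtain ⟨-, R, hR⟩ := hfa
  have hAp : IsPGroup p (F.autGroup Q) := hA.to_subgroup _
  have htop : (⊤ : Subgroup (F.autGroup Q)) = R :=
    R.is_maximal' (hAp.to_subgroup ⊤) le_top
  apply le_antisymm
  · intro α hα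
    have h1 : (⟨α, hα⟩ : F.autGroup Q) ∈ (R : Subgroup (F.autGroup Q)) := by
      rw [← htop]
      exact Subgroup.mem_top _
    rw [hR, Subgroup.mem_subgroupOf] at h1
    obtain ⟨g, hg, hgα⟩ := (Cfsg.Agent.Lib.helper26.mem_autInducedBy_iff _ _ _).1 h1
    refine ⟨⟨g, hg⟩, ?_⟩
    ext x
    exact (hgα x).symm
  · exact (inn_le_autInducedBy le_rfl).trans
      (Cfsg.Agent.Lib.helper26.autInducedBy_le_autGroup F le_rfl)

end Cfsg.Agent.Lib.helper25
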