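import Mathlib
import Cfsg.Prelude.Def_FusionSystem
import Cfsg.Agent.Lib.helper26.CentricExt
import Cfsg.Agent.Lib.helper25.FusionBasic

set_option autoImplicit false

namespace Cfsg.Agent.Lib.helper25

open Cfsg Cfsg.FusionSystem

variable {Ω : Type*} [Group Ω] {S : Subgroup Ω}

/-- Two maps of a saturated system on `R` agreeing on a normal centric subgroup `Q` of `R` differ by
conjugation with an element of `Z(Q)`. -/
theorem eq_comp_conj_of_agree_normal [Finite S] {p : ℕ} [Fact p.Prime] (hS : IsPGroup p S)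
    (F : FusionSystem S) (hF : F.IsSaturated p) {Q R : Subgroup Ω} (hQR : Q ≤ R)
    (hn : R ≤ Subgroup.normalizer (Q : Set Ω)) (hQ : F.IsCentric Q) {φ φ' : R →* Ω}
    (hφ : φ ∈ F.Hom R) (hφ' : φ' ∈ F.Hom R) (h : ∀ x : R, (x : Ω) ∈ Q → φ x = φ' x) :
    ∃ z : R, (z : Ω) ∈ Q ∧ (z : Ω) ∈ Subgroup.centralizer (Q : Set Ω) ∧
      ∀ y : R, φ' y = φ (z * y * z⁻¹) := by
  have hR : R ≤ S := (F.le_of_mem hφ).1
  have hφQ := Cfsg.Agent.Lib.helper26.restrict_mem F hφ hQR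
  have hconj : F.IsConj Q (φ.comp (Subgroup.inclusion hQR)).range := ⟨_, hφQ, rfl⟩
  have hcen := hQ.2 _ hconj
  have hA : ∀ g : R, φ' g ∈ φ.range := by
    intro g
    have h1 : (φ g)⁻¹ * φ' g ∈ centralizerIn S (φ.comp (Subgroup.inclusion hQR)).range := by
      refine ⟨S.mul_mem (S.inv_mem ((F.le_of_mem hφ).2 g)) ((F.le_of_mem hφ').2 g), ?_⟩
      show _ ∈ Subgroup.centralizer _
      rw [Subgroup.mem_centralizer_iff]
      rintro _ ⟨x, rfl⟩
      have hu : (g : Ω) * x * (g : Ω)⁻¹ ∈ Q := (Subgroup.mem_normalizer_iff.1 (hn g.2) x).1 x.2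
      have e := h (g * Subgroup.inclusion hQR x * g⁻¹) hu
      rw [map_mul, map_mul, map_inv, map_mul, map_mul, map_inv,
        ← h (Subgroup.inclusion hQR x) x.2] at e
      show φ (Subgroup.inclusion hQR x) * ((φ g)⁻¹ * φ' g) = (φ g)⁻¹ * φ' g * φ (Subgroup.inclusion hQR x)
      calc φ (Subgroup.inclusion hQR x) * ((φ g)⁻¹ * φ' g)
          = (φ g)⁻¹ * (φ g * φ (Subgroup.inclusion hQR x) * (φ g)⁻¹) * φ' g := by group
        _ = (φ g)⁻¹ * (φ' g * φ (Subgroup.inclusion hQR x) * (φ' g)⁻¹) * φ' g := by rw [e]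
        _ = (φ g)⁻¹ * φ' g * φ (Subgroup.inclusion hQR x) := by group
    obtain ⟨x, hx⟩ := hcen h1
    have h2 : φ' g = φ (g * Subgroup.inclusion hQR x) := by
      rw [map_mul]
      have : φ (Subgroup.inclusion hQR x) = (φ g)⁻¹ * φ' g := hx
      rw [this]
      group
    rw [h2]
    exact ⟨_, rfl⟩
  obtain ⟨χ, hχ, hχx⟩ := F.inv_mem hφ
  have hψ := F.comp_mem hφ' hχ hA
  have hfix : ∀ x : R, (x : Ω) ∈ Q → (χ.comp (φ'.codRestrict φ.range hA)) x = x := by
    intro x hx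
    rw [← hχx x]
    show χ ⟨φ' x, _⟩ = χ ⟨φ x, _⟩
    congr 1
    exact Subtype.ext (h x hx).symm
  obtain ⟨z, hzQ, hz⟩ := Cfsg.Agent.Lib.helper26.eq_conj_of_fix_centric hS F hF hQR hn hQ hψ hfix
  refine ⟨⟨z, hQR hzQ⟩, hzQ, ?_, fun y => ?_⟩
  · rw [Subgroup.mem_centralizer_iff]
    intro x hx
    have h3 := hz ⟨x, hQR hx⟩
    rw [hfix ⟨x, hQR hx⟩ hx] at h3
    show x * z = z * x
    calc x * z = (z * x * z⁻¹) * z := by
          have h3' : x = z * x * z⁻¹ := h3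
          rw [← h3']
      _ = z * x := by group
  · obtain ⟨u, hu⟩ := hA y
    have h4 : (χ.comp (φ'.codRestrict φ.range hA)) y = u := by
      rw [← hχx u]
      show χ ⟨φ' y, _⟩ = χ ⟨φ u, _⟩
      congr 1
      exact Subtype.ext hu.symm
    rw [hz y] at h4
    rw [← hu]
    congr 1
    exact Subtype.ext h4.symm

/-- Two maps of a saturated system on `P` agreeing on a centric subgroup `Q` of `P` differ by
conjugation with an element of `Z(Q)` (BLO, Proposition A.8). -/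
theorem eq_comp_conj_of_agree [Finite S] {p : ℕ} [Fact p.Prime] (hS : IsPGroup p S)
    (F : FusionSystem S) (hF : F.IsSaturated p) {Q P : Subgroup Ω} (hQP : Q ≤ P)
    (hQ : F.IsCentric Q) {φ φ' : P →* Ω}
    (hφ : φ ∈ F.Hom P) (hφ' : φ' ∈ F.Hom P) (h : ∀ x : P, (x : Ω) ∈ Q → φ x = φ' x) :
    ∃ z : P, (z : Ω) ∈ Q ∧ (z : Ω) ∈ Subgroup.centralizer (Q : Set Ω) ∧
      ∀ y : P, φ' y = φ (z * y * z⁻¹) := by
  have hP : P ≤ S := (F.le_of_mem hφ).1
  have hfinP : Finite P := Cfsg.Agent.Lib.helper26.finite_of_le hP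
  have hpP : IsPGroup p P := hS.to_le hP
  have key : ∀ n : ℕ, ∀ (R' : Subgroup Ω) (_ : Q ≤ R') (_ : R' ≤ P),
      (∃ z : P, (z : Ω) ∈ Q ∧ (z : Ω) ∈ Subgroup.centralizer (Q : Set Ω) ∧
        ∀ y : P, (y : Ω) ∈ R' → φ' y = φ (z * y * z⁻¹)) → Nat.card P - Nat.card R' = n →
      ∃ z : P, (z : Ω) ∈ Q ∧ (z : Ω) ∈ Subgroup.centralizer (Q : Set Ω) ∧
        ∀ y : P, φ' y = φ (z * y * z⁻¹) := by
    intro n
    induction n using Nat.strong_induction_on with
    | _ n ih =>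
      intro R' h1 h2 hex hn
      by_cases hRR : R' = P
      · subst hRR
        obtain ⟨z, hz1, hz2, hz3⟩ := hex
        exact ⟨z, hz1, hz2, fun y => hz3 y y.2⟩
      · obtain ⟨z, hz1, hz2, hz3⟩ := hex
        have hlt : Nat.card R' < Nat.card (normalizerIn P R') :=
          Cfsg.Agent.Lib.helper26.card_lt_card_normalizerIn (S := P) hpP h2 hRR
        have hR₁P : normalizerIn P R' ≤ P := inf_le_left
        have hR'R₁ : R' ≤ normalizerIn P R' := le_inf h2 Subgroup.le_normalizer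
        have hcen : F.IsCentric R' := Cfsg.Agent.Lib.helper26.isCentric_of_le F hQ h1 (h2.trans hP)
        have hcz : ∀ y : P, (Cfsg.conjHom P (z : Ω)) y ∈ P := fun y =>
          P.mul_mem (P.mul_mem z.2 y.2) (P.inv_mem z.2)
        have hφz : φ.comp ((Cfsg.conjHom P (z : Ω)).codRestrict P hcz) ∈ F.Hom P :=
          F.comp_mem (F.conj_mem hP (hP z.2)) hφ hcz
        have hφ₁ := Cfsg.Agent.Lib.helper26.restrict_mem F hφz hR₁P
        have hφ'₁ := Cfsg.Agent.Lib.helper26.restrict_mem F hφ' hR₁P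
        have hag : ∀ x : normalizerIn P R', (x : Ω) ∈ R' →
            ((φ.comp ((Cfsg.conjHom P (z : Ω)).codRestrict P hcz)).comp (Subgroup.inclusion hR₁P)) x =
              (φ'.comp (Subgroup.inclusion hR₁P)) x := by
          intro x hx
          have := hz3 (Subgroup.inclusion hR₁P x) hx
          show φ ⟨(z : Ω) * x * (z : Ω)⁻¹, _⟩ = φ' (Subgroup.inclusion hR₁P x)
          rw [this]
          rfl
        obtain ⟨w, hw1, hw2, hw3⟩ :=
          eq_comp_conj_of_agree_normal hS F hF hR'R₁ inf_le_right hcen hφ₁ hφ'₁ hag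
        have hwQ : (w : Ω) ∈ Q := by
          apply hQ.2 Q (Cfsg.Agent.Lib.helper26.isConj_refl F hQ.1)
          refine ⟨hP (hR₁P w.2), ?_⟩
          show (w : Ω) ∈ Subgroup.centralizer (Q : Set Ω)
          exact Subgroup.centralizer_le (show (Q : Set Ω) ⊆ R' from h1) hw2
        have hwC : (w : Ω) ∈ Subgroup.centralizer (Q : Set Ω) :=
          Subgroup.centralizer_le (show (Q : Set Ω) ⊆ R' from h1) hw2
        have hc1 := Subgroup.card_le_of_le hR₁P
        refine ih (Nat.card P - Nat.card (normalizerIn P R')) (by omega) _ (h1.trans hR'R₁) hR₁P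
          ⟨z * Subgroup.inclusion hR₁P w, Q.mul_mem hz1 hwQ, Subgroup.mul_mem _ hz2 hwC,
            fun y hy => ?_⟩ rfl
        have h5 := hw3 ⟨y, hy⟩
        have h6 : φ' y = (φ'.comp (Subgroup.inclusion hR₁P)) ⟨y, hy⟩ := rfl
        rw [h6, h5]
        show φ ⟨(z : Ω) * ((w : Ω) * y * (w : Ω)⁻¹) * (z : Ω)⁻¹, _⟩ = _
        congr 1
        apply Subtype.ext
        show (z : Ω) * ((w : Ω) * y * (w : Ω)⁻¹) * (z : Ω)⁻¹ =
          (z : Ω) * (w : Ω) * y * ((z : Ω) * (w : Ω))⁻¹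
        group
  exact key _ Q le_rfl hQP ⟨1, Q.one_mem, Subgroup.one_mem _, fun y hy => by
    rw [one_mul, inv_one, mul_one]; exact (h y hy).symm⟩ rfl

end Cfsg.Agent.Lib.helper25
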