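import Mathlib
import Cfsg.Prelude.Def_RootSubgroups
import Cfsg.Agent.S5013

set_option autoImplicit false

namespace Cfsg.Agent.Lib.helper25

open Cfsg
open Cfsg.Agent.S5013 (conjBy_conjBy conjBy_one conjBy_of_mem conjBy_of_mem_normalizer
  mem_normalizer_of_conjBy inf_normalizer_eq_bot)

variable {G : Type*} [Group G]

theorem conjBy_injective (g : G) : Function.Injective (fun A : Subgroup G => Cfsg.conjBy A g) := by
  intro A B hAB
  have h := congrArg (fun C : Subgroup G => Cfsg.conjBy C g⁻¹) hAB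
  simpa [conjBy_conjBy, conjBy_one] using h

theorem conjBy_eq_iff {A B : Subgroup G} {g : G} : Cfsg.conjBy A g = B ↔ A = Cfsg.conjBy B g⁻¹ := by
  constructor
  · rintro rfl
    rw [conjBy_conjBy, inv_mul_cancel, conjBy_one]
  · intro h
    rw [h, conjBy_conjBy, mul_inv_cancel, conjBy_one]

/-- clean form of the rank one condition -/
theorem rankOne_left {A B : Subgroup G} (h : Cfsg.IsRankOnePair A B) {a : G} (ha : a ∈ A) (ha1 : a ≠ 1) :
    ∃ b ∈ B, b ≠ 1 ∧ Cfsg.conjBy B a = Cfsg.conjBy A b := by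
  obtain ⟨b, hb, hb1, hconj⟩ := h.cond_left a⁻¹ (A.inv_mem ha) (inv_ne_one.mpr ha1)
  refine ⟨b⁻¹, B.inv_mem hb, inv_ne_one.mpr hb1, ?_⟩
  rw [inv_inv] at hconj
  exact hconj.symm

theorem rankOne_right {A B : Subgroup G} (h : Cfsg.IsRankOnePair A B) {b : G} (hb : b ∈ B) (hb1 : b ≠ 1) :
    ∃ a ∈ A, a ≠ 1 ∧ Cfsg.conjBy A b = Cfsg.conjBy B a :=
  rankOne_left (Cfsg.RankOnePair_symm h) hb hb1

theorem rankOne_exists_ne_one {A B : Subgroup G} (h : Cfsg.IsRankOnePair A B) : ∃ a ∈ A, a ≠ 1 := by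
  by_contra hcon
  push Not at hcon
  have hA : A = ⊥ := by
    rw [eq_bot_iff]
    intro a ha
    exact Subgroup.mem_bot.mpr (hcon a ha)
  have hB : B = ⊥ := by
    rw [eq_bot_iff]
    intro b hb
    rw [Subgroup.mem_bot]
    by_contra hb1
    obtain ⟨a, ha, ha1, -⟩ := rankOne_right h hb hb1
    exact ha1 (hcon a ha)
  exact h.ne (hA.trans hB.symm)

/-- `B` is a conjugate of `A` under `A ⊔ B`. -/
theorem rankOne_B_conj {A B : Subgroup G} (h : Cfsg.IsRankOnePair A B) :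
    ∃ x ∈ A ⊔ B, B = Cfsg.conjBy A x := by
  obtain ⟨a, ha, ha1⟩ := rankOne_exists_ne_one h
  obtain ⟨b, hb, -, hconj⟩ := rankOne_left h ha ha1
  refine ⟨a⁻¹ * b, Subgroup.mul_mem _ (Subgroup.mem_sup_left (A.inv_mem ha)) (Subgroup.mem_sup_right hb), ?_⟩
  rw [← conjBy_conjBy, ← hconj, conjBy_conjBy, inv_mul_cancel, conjBy_one]

theorem rankOne_conjBy_B_inj {A B : Subgroup G} (h : Cfsg.IsRankOnePair A B) {a a' : G} (ha : a ∈ A)
    (ha' : a' ∈ A) (he : Cfsg.conjBy B a = Cfsg.conjBy B a') : a = a' := by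
  have h1 : Cfsg.conjBy B (a'⁻¹ * a) = B := by
    rw [← conjBy_conjBy, he, conjBy_conjBy, inv_mul_cancel, conjBy_one]
  have h2 : a'⁻¹ * a ∈ A ⊓ Subgroup.normalizer (B : Set G) :=
    ⟨A.mul_mem (A.inv_mem ha') ha, mem_normalizer_of_conjBy B h1⟩
  rw [inf_normalizer_eq_bot h, Subgroup.mem_bot] at h2
  exact (inv_mul_eq_one.mp h2).symm

theorem rankOne_A_ne_conjBy_B {A B : Subgroup G} (h : Cfsg.IsRankOnePair A B) {a : G} (ha : a ∈ A) :
    A ≠ Cfsg.conjBy B a := by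
  intro he
  have h1 : Cfsg.conjBy A a⁻¹ = B := by
    rw [he, conjBy_conjBy, inv_mul_cancel, conjBy_one]
  rw [conjBy_of_mem A (A.inv_mem ha)] at h1
  exact h.ne h1

/-- The set `{A} ∪ B^A`. -/
def rankOneOrbit (A B : Subgroup G) : Set (Subgroup G) := {C | C = A ∨ ∃ a ∈ A, C = Cfsg.conjBy B a}

theorem rankOneOrbit_conj_A {A B : Subgroup G} {C : Subgroup G} (hC : C ∈ rankOneOrbit A B) {a : G}
    (ha : a ∈ A) : Cfsg.conjBy C a ∈ rankOneOrbit A B := by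
  rcases hC with rfl | ⟨a', ha', rfl⟩
  · left
    exact conjBy_of_mem C ha
  · right
    exact ⟨a * a', A.mul_mem ha ha', conjBy_conjBy _ _ _⟩

theorem rankOneOrbit_conj_B {A B : Subgroup G} (h : Cfsg.IsRankOnePair A B) {C : Subgroup G}
    (hC : C ∈ rankOneOrbit A B) {b : G} (hb : b ∈ B) : Cfsg.conjBy C b ∈ rankOneOrbit A B := by
  have key : ∀ b' ∈ B, Cfsg.conjBy A b' ∈ rankOneOrbit A B := by
    intro b' hb'
    by_cases hb1 : b' = 1
    · left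
      rw [hb1, conjBy_one]
    · obtain ⟨a, ha, -, he⟩ := rankOne_right h hb' hb1
      right
      exact ⟨a, ha, he⟩
  rcases hC with rfl | ⟨a, ha, rfl⟩
  · exact key b hb
  · by_cases ha1 : a = 1
    · right
      refine ⟨1, A.one_mem, ?_⟩
      rw [ha1, conjBy_one, conjBy_of_mem B hb]
    · obtain ⟨b', hb', -, he⟩ := rankOne_left h ha ha1
      rw [he, conjBy_conjBy]
      exact key _ (B.mul_mem hb hb')

theorem rankOneOrbit_conj {A B : Subgroup G} (h : Cfsg.IsRankOnePair A B) {x : G} (hx : x ∈ A ⊔ B) :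
    ∀ C ∈ rankOneOrbit A B, Cfsg.conjBy C x ∈ rankOneOrbit A B := by
  let K : Subgroup G :=
    { carrier := {x | (∀ C ∈ rankOneOrbit A B, Cfsg.conjBy C x ∈ rankOneOrbit A B) ∧
        (∀ C ∈ rankOneOrbit A B, Cfsg.conjBy C x⁻¹ ∈ rankOneOrbit A B)}
      mul_mem' := by
        rintro x y ⟨hx1, hx2⟩ ⟨hy1, hy2⟩
        refine ⟨fun C hC => ?_, fun C hC => ?_⟩
        · rw [← conjBy_conjBy]
          exact hx1 _ (hy1 C hC)
        · rw [mul_inv_rev, ← conjBy_conjBy]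
          exact hy2 _ (hx2 C hC)
      one_mem' := by
        refine ⟨fun C hC => ?_, fun C hC => ?_⟩
        · rw [conjBy_one]; exact hC
        · rw [inv_one, conjBy_one]; exact hC
      inv_mem' := by
        rintro x ⟨hx1, hx2⟩
        refine ⟨hx2, ?_⟩
        rw [inv_inv]
        exact hx1 }
  have hA : A ≤ K := fun a ha =>
    ⟨fun C hC => rankOneOrbit_conj_A hC ha, fun C hC => rankOneOrbit_conj_A hC (A.inv_mem ha)⟩
  have hB : B ≤ K := fun b hb =>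
    ⟨fun C hC => rankOneOrbit_conj_B h hC hb, fun C hC => rankOneOrbit_conj_B h hC (B.inv_mem hb)⟩
  exact (sup_le hA hB hx).1

theorem unipotentSubgroups_eq {A B : Subgroup G} (h : Cfsg.IsRankOnePair A B) :
    Cfsg.unipotentSubgroups A B = rankOneOrbit A B := by
  ext C
  constructor
  · rintro ⟨x, hx, rfl⟩
    exact rankOneOrbit_conj h hx A (Or.inl rfl)
  · rintro (rfl | ⟨a, ha, rfl⟩)
    · exact ⟨1, Subgroup.one_mem _, (conjBy_one C).symm⟩
    · obtain ⟨x, hx, hBx⟩ := rankOne_B_conj h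
      refine ⟨a * x, Subgroup.mul_mem _ (Subgroup.mem_sup_left ha) hx, ?_⟩
      rw [hBx, conjBy_conjBy]

theorem unipotentSubgroups_conj {A B : Subgroup G} {C : Subgroup G}
    (hC : C ∈ Cfsg.unipotentSubgroups A B) {x : G} (hx : x ∈ A ⊔ B) :
    Cfsg.conjBy C x ∈ Cfsg.unipotentSubgroups A B := by
  obtain ⟨y, hy, rfl⟩ := hC
  exact ⟨x * y, Subgroup.mul_mem _ hx hy, conjBy_conjBy _ _ _⟩

theorem self_mem_unipotentSubgroups (A B : Subgroup G) : A ∈ Cfsg.unipotentSubgroups A B :=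
  ⟨1, Subgroup.one_mem _, (conjBy_one A).symm⟩

/-- `A` acts regularly on the unipotent subgroups other than `A`. -/
theorem rankOne_regular {A B : Subgroup G} (h : Cfsg.IsRankOnePair A B) {C D : Subgroup G}
    (hC : C ∈ Cfsg.unipotentSubgroups A B) (hD : D ∈ Cfsg.unipotentSubgroups A B) (hCA : C ≠ A)
    (hDA : D ≠ A) : ∃! a : G, a ∈ A ∧ Cfsg.conjBy C a = D := by
  rw [unipotentSubgroups_eq h] at hC hD
  rcases hC with rfl | ⟨c, hc, rfl⟩
  · exact absurd rfl hCA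
  rcases hD with rfl | ⟨d, hd, rfl⟩
  · exact absurd rfl hDA
  refine ⟨d * c⁻¹, ⟨A.mul_mem hd (A.inv_mem hc), ?_⟩, ?_⟩
  · rw [conjBy_conjBy, inv_mul_cancel_right]
  · rintro a ⟨ha, hae⟩
    rw [conjBy_conjBy] at hae
    have := rankOne_conjBy_B_inj h (A.mul_mem ha hc) hd hae
    rw [← this, mul_inv_cancel_right]

theorem rankOne_three {A B : Subgroup G} (h : Cfsg.IsRankOnePair A B) :
    ∃ C₁ ∈ Cfsg.unipotentSubgroups A B, ∃ C₂ ∈ Cfsg.unipotentSubgroups A B,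
      ∃ C₃ ∈ Cfsg.unipotentSubgroups A B, C₁ ≠ C₂ ∧ C₁ ≠ C₃ ∧ C₂ ≠ C₃ := by
  obtain ⟨a, ha, ha1⟩ := rankOne_exists_ne_one h
  rw [unipotentSubgroups_eq h]
  refine ⟨A, Or.inl rfl, B, Or.inr ⟨1, A.one_mem, (conjBy_one B).symm⟩, Cfsg.conjBy B a,
    Or.inr ⟨a, ha, rfl⟩, h.ne, rankOne_A_ne_conjBy_B h ha, ?_⟩
  intro he
  have h1 : Cfsg.conjBy B 1 = Cfsg.conjBy B a := by rw [conjBy_one]; exact he
  exact ha1 (rankOne_conjBy_B_inj h A.one_mem ha h1).symm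

theorem rankOne_transitive {A B : Subgroup G} {C : Subgroup G}
    (hC : C ∈ Cfsg.unipotentSubgroups A B) : ∃ x ∈ A ⊔ B, Cfsg.conjBy C x = A := by
  obtain ⟨y, hy, rfl⟩ := hC
  exact ⟨y⁻¹, Subgroup.inv_mem _ hy, by rw [conjBy_conjBy, inv_mul_cancel, conjBy_one]⟩

theorem rankOne_two_transitive {A B : Subgroup G} (h : Cfsg.IsRankOnePair A B)
    {C₁ C₂ D₁ D₂ : Subgroup G} (hC₁ : C₁ ∈ Cfsg.unipotentSubgroups A B)
    (hC₂ : C₂ ∈ Cfsg.unipotentSubgroups A B) (hD₁ : D₁ ∈ Cfsg.unipotentSubgroups A B)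
    (hD₂ : D₂ ∈ Cfsg.unipotentSubgroups A B) (hC : C₁ ≠ C₂) (hD : D₁ ≠ D₂) :
    ∃ x ∈ A ⊔ B, Cfsg.conjBy C₁ x = D₁ ∧ Cfsg.conjBy C₂ x = D₂ := by
  obtain ⟨x₁, hx₁, hx₁e⟩ := rankOne_transitive hC₁
  obtain ⟨y₁, hy₁, hy₁e⟩ := rankOne_transitive hD₁
  have hC₂' : Cfsg.conjBy C₂ x₁ ≠ A := by
    intro he
    exact hC (conjBy_injective x₁ (hx₁e.trans he.symm))
  have hD₂' : Cfsg.conjBy D₂ y₁ ≠ A := by
    intro he
    exact hD (conjBy_injective y₁ (hy₁e.trans he.symm))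
  obtain ⟨a, ⟨ha, hae⟩, -⟩ := rankOne_regular h (unipotentSubgroups_conj hC₂ hx₁)
    (unipotentSubgroups_conj hD₂ hy₁) hC₂' hD₂'
  refine ⟨y₁⁻¹ * (a * x₁), Subgroup.mul_mem _ (Subgroup.inv_mem _ hy₁)
    (Subgroup.mul_mem _ (Subgroup.mem_sup_left ha) hx₁), ?_, ?_⟩
  · rw [← conjBy_conjBy, ← conjBy_conjBy, hx₁e, conjBy_of_mem A ha, ← hy₁e, conjBy_conjBy,
      inv_mul_cancel, conjBy_one]
  · rw [← conjBy_conjBy, ← conjBy_conjBy, hae, conjBy_conjBy, inv_mul_cancel, conjBy_one]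

end Cfsg.Agent.Lib.helper25
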