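import Mathlib
import Cfsg.Prelude.Def_Solvable
import Cfsg.Agent.Lib.helper1.Fitting

set_option autoImplicit false

namespace Cfsg.Agent.Lib.helper25.S1451C

open scoped commutatorElement

/-- Piece (C) of S1451: a characteristic subgroup of a Sylow `q`-subgroup `S` lying in `S'` is
normal in `G`, when `G' ≤ F(G)` and the `p'`-elements of `G'` centralize `O_p(G)` for `p ≠ q`. -/
theorem char_le_der_normal {G : Type*} [Group G] [Finite G] (q : ℕ) [Fact q.Prime] (S : Sylow q G)
    (T : Subgroup ↥(S : Subgroup G)) (hT : T.Characteristic)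
    (hTS : T.map (S : Subgroup G).subtype ≤ ⁅(S : Subgroup G), (S : Subgroup G)⁆)
    (hK : commutator G ≤ Cfsg.fittingSubgroup G)
    (h : ∀ p : ℕ, p.Prime → p ≠ q → ∀ g ∈ commutator G, (orderOf g).Coprime p →
      g ∈ Subgroup.centralizer ((Cfsg.pCore p G : Subgroup G) : Set G)) :
    (T.map (S : Subgroup G).subtype).Normal := by
  classical
  rw [← Subgroup.normalizer_eq_top_iff]
  have hTle : T.map (S : Subgroup G).subtype ≤ (S : Subgroup G) := Subgroup.map_subtype_le T
  have hSN : (S : Subgroup G) ≤
      Subgroup.normalizer ((T.map (S : Subgroup G).subtype : Subgroup G) : Set G) := by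
    rw [← Subgroup.normal_subgroupOf_iff_le_normalizer hTle]
    have h1 : (T.map (S : Subgroup G).subtype).subgroupOf (S : Subgroup G) = T := by
      rw [Subgroup.subgroupOf,
        Subgroup.comap_map_eq_self_of_injective (Subgroup.subtype_injective _)]
    rw [h1]
    infer_instance
  have hconj : ∀ g ∈ Subgroup.normalizer ((S : Subgroup G) : Set G),
      ∀ x ∈ T.map (S : Subgroup G).subtype, g * x * g⁻¹ ∈ T.map (S : Subgroup G).subtype := by
    intro g hg x hx
    have hg' := Subgroup.mem_normalizer_iff.mp hg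
    let φ : ↥(S : Subgroup G) ≃* ↥(S : Subgroup G) :=
      { toFun := fun y => ⟨g * y * g⁻¹, (hg' y).mp y.2⟩
        invFun := fun y => ⟨g⁻¹ * y * g, (hg' _).mpr (by simpa [mul_assoc] using y.2)⟩
        left_inv := fun y => by ext; simp [mul_assoc]
        right_inv := fun y => by ext; simp [mul_assoc]
        map_mul' := fun y z => by ext; simp [mul_assoc] }
    obtain ⟨t, ht, rfl⟩ := Subgroup.mem_map.mp hx
    have h1 : T.map φ.toMonoidHom = T := Subgroup.characteristic_iff_map_eq.mp hT φ
    have h2 : φ t ∈ T := by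
      rw [← h1]
      exact Subgroup.mem_map_of_mem _ ht
    exact Subgroup.mem_map.mpr ⟨φ t, h2, rfl⟩
  have hNSN : Subgroup.normalizer ((S : Subgroup G) : Set G) ≤
      Subgroup.normalizer ((T.map (S : Subgroup G).subtype : Subgroup G) : Set G) := by
    intro g hg
    rw [Subgroup.mem_normalizer_iff]
    intro x
    constructor
    · exact hconj g hg x
    · intro hx
      have h1 := hconj g⁻¹ (Subgroup.inv_mem _ hg) _ hx
      simpa [mul_assoc] using h1
  have hpc : ∀ p : Nat.Primes, Cfsg.pCore (p : ℕ) G ≤
      Subgroup.normalizer ((T.map (S : Subgroup G).subtype : Subgroup G) : Set G) := by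
    intro p
    by_cases hpq : (p : ℕ) = q
    · have hle : Cfsg.pCore (p : ℕ) G ≤ (S : Subgroup G) := by
        have hpg := Cfsg.Agent.Lib.helper1.pCore_isPGroup (p : ℕ) G
        rw [hpq] at hpg ⊢
        haveI := Cfsg.Agent.Lib.helper1.pCore_normal q G
        exact hpg.le_sylow_of_normal S
      exact hle.trans hSN
    · refine le_trans ?_ (Subgroup.centralizer_le_normalizer _)
      rw [Subgroup.le_centralizer_iff]
      intro x hx
      have hxS : x ∈ (S : Subgroup G) := hTle hx
      have hxc : x ∈ commutator G := by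
        rw [commutator_def]
        exact Subgroup.commutator_mono le_top le_top (hTS hx)
      apply h p p.2 hpq x hxc
      obtain ⟨k, hk⟩ := S.isPGroup' ⟨x, hxS⟩
      have hk' : x ^ q ^ k = 1 := by simpa using congrArg Subtype.val hk
      have hd : orderOf x ∣ q ^ k := orderOf_dvd_of_pow_eq_one hk'
      have hq := (Fact.out : q.Prime)
      have hcop : (q ^ k).Coprime p :=
        Nat.Coprime.pow_left _ ((Nat.coprime_primes hq p.2).mpr (fun e => hpq e.symm))
      exact Nat.Coprime.coprime_dvd_left hd hcop
  have hFN : Cfsg.fittingSubgroup G ≤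
      Subgroup.normalizer ((T.map (S : Subgroup G).subtype : Subgroup G) : Set G) := by
    rw [Cfsg.Agent.Lib.helper1.fitting_eq_iSup_pCore]
    exact iSup_le hpc
  haveI hHn : (Cfsg.fittingSubgroup G ⊔ (S : Subgroup G)).Normal := by
    constructor
    intro n hn g
    have h1 : g * n * g⁻¹ = ⁅g, n⁆ * n := by
      rw [commutatorElement_def]
      group
    rw [h1]
    refine Subgroup.mul_mem _ (le_sup_left (a := Cfsg.fittingSubgroup G) (hK ?_)) hn
    rw [commutator_def]
    exact Subgroup.commutator_mem_commutator (Subgroup.mem_top g) (Subgroup.mem_top n)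
  have hfr := Sylow.normalizer_sup_eq_top' S
    (le_sup_right : (S : Subgroup G) ≤ Cfsg.fittingSubgroup G ⊔ (S : Subgroup G))
  rw [eq_top_iff, ← hfr]
  exact sup_le hNSN (sup_le hFN hSN)

end Cfsg.Agent.Lib.helper25.S1451C
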