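import Mathlib
import Cfsg.Agent.Lib.helper25.S1455Q1

set_option autoImplicit false

namespace Cfsg.Agent.Lib.helper25.S1455Q2

/-- (Q2) of S1455: a narrow Sylow `p`-subgroup `S` of `G`, `N` a normal `p'`-subgroup with
`G = N N_G(S)`: in `G ⧸ N` the image `P` of `S` is the largest normal `p`-subgroup and contains an
elementary abelian `E` whose centralizer in `P` has `p`-rank at most 2. -/
theorem narrow_quot {G : Type*} [Group G] [Finite G] (p : ℕ) [Fact p.Prime] (S : Sylow p G)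
    (N : Subgroup G) [N.Normal] (hN : (Nat.card N).Coprime p)
    (hSn : N ⊔ Subgroup.normalizer ((S : Subgroup G) : Set G) = ⊤)
    (R₀ R₁ : Subgroup ↥(S : Subgroup G)) (h0 : Nat.card R₀ = p) (h1 : IsCyclic R₁)
    (hc : ∀ a ∈ R₀, ∀ b ∈ R₁, a * b = b * a)
    (hsup : R₀ ⊔ R₁ = Subgroup.centralizer (R₀ : Set ↥(S : Subgroup G))) :
    ∃ P E : Subgroup (G ⧸ N), P.Normal ∧ IsPGroup p P ∧
      (∀ Q : Subgroup (G ⧸ N), Q.Normal → IsPGroup p Q → Q ≤ P) ∧ E ≤ P ∧
      (∀ a ∈ E, ∀ b ∈ E, a * b = b * a) ∧ (∀ a ∈ E, a ^ p = 1) ∧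
      ∀ B : Subgroup (G ⧸ N), B ≤ P → B ≤ Subgroup.centralizer (E : Set (G ⧸ N)) →
        (∀ a ∈ B, ∀ b ∈ B, a * b = b * a) → (∀ b ∈ B, b ^ p = 1) → Nat.card B ≤ p ^ 2 := by
  classical
  have hp : p.Prime := Fact.out
  obtain ⟨π, hπdef⟩ : ∃ π : G →* G ⧸ N, π = QuotientGroup.mk' N := ⟨_, rfl⟩
  have hπ : Function.Surjective π := by
    rw [hπdef]
    exact QuotientGroup.mk'_surjective N
  have hπ1 : ∀ g : G, π g = 1 ↔ g ∈ N := by
    intro g
    rw [hπdef]
    exact QuotientGroup.eq_one_iff g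
  obtain ⟨φ, hφdef⟩ : ∃ φ : ↥(S : Subgroup G) →* G ⧸ N, φ = π.comp (S : Subgroup G).subtype :=
    ⟨_, rfl⟩
  have hφapp : ∀ s : ↥(S : Subgroup G), φ s = π (s : G) := by
    intro s
    rw [hφdef]
    rfl
  have hφinj : Function.Injective φ := by
    rw [injective_iff_map_eq_one]
    intro s hs
    have hsN : (s : G) ∈ N := (hπ1 _).mp (by rw [← hφapp]; exact hs)
    obtain ⟨k, hk⟩ := S.isPGroup' s
    have hk' : (s : G) ^ p ^ k = 1 := by simpa using congrArg Subtype.val hk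
    have hd1 : orderOf (s : G) ∣ p ^ k := orderOf_dvd_of_pow_eq_one hk'
    have hd2 : orderOf (s : G) ∣ Nat.card N := by
      have h2 := orderOf_dvd_natCard (⟨(s : G), hsN⟩ : N)
      rwa [Subgroup.orderOf_mk] at h2
    have h3 : orderOf (s : G) = 1 :=
      Nat.eq_one_of_dvd_coprimes (Nat.Coprime.pow_right k hN) hd2 hd1
    exact Subtype.ext (orderOf_eq_one_iff.mp h3)
  have hPn : ((S : Subgroup G).map π).Normal := by
    constructor
    intro y hy x
    obtain ⟨s, hs, rfl⟩ := Subgroup.mem_map.mp hy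
    obtain ⟨g, rfl⟩ := hπ x
    have hg : g ∈ N ⊔ Subgroup.normalizer ((S : Subgroup G) : Set G) := by
      rw [hSn]
      exact Subgroup.mem_top g
    obtain ⟨k, hk, n, hn, rfl⟩ := Subgroup.mem_sup_of_normal_left.mp hg
    have hk1 : π k = 1 := (hπ1 k).mpr hk
    have h2 : π (k * n) * π s * (π (k * n))⁻¹ = π (n * s * n⁻¹) := by
      rw [map_mul, hk1, one_mul, ← map_mul, ← map_inv, ← map_mul]
    rw [h2]
    exact Subgroup.mem_map_of_mem π ((Subgroup.mem_normalizer_iff.mp hn s).mp hs)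
  have hPp : IsPGroup p ((S : Subgroup G).map π) := S.isPGroup'.map π
  have hmax : ∀ Q : Subgroup (G ⧸ N), Q.Normal → IsPGroup p Q → Q ≤ (S : Subgroup G).map π := by
    intro Q hQn hQp
    haveI := hQn
    have h2 := hQp.le_sylow_of_normal (S.mapSurjective hπ)
    rwa [Sylow.coe_mapSurjective] at h2
  have hEP : R₀.map φ ≤ (S : Subgroup G).map π := by
    rintro _ ⟨r, -, rfl⟩
    rw [hφapp]
    exact Subgroup.mem_map_of_mem π r.2
  haveI hcyc : IsCyclic R₀ := isCyclic_of_prime_card h0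
  have hR0comm : ∀ a b : R₀, a * b = b * a := by
    obtain ⟨g, hg⟩ := hcyc.exists_generator
    intro a b
    obtain ⟨i, rfl⟩ := Subgroup.mem_zpowers_iff.mp (hg a)
    obtain ⟨j, rfl⟩ := Subgroup.mem_zpowers_iff.mp (hg b)
    exact zpow_mul_comm g i j
  have hEc : ∀ a ∈ R₀.map φ, ∀ b ∈ R₀.map φ, a * b = b * a := by
    rintro _ ⟨r, hr, rfl⟩ _ ⟨r', hr', rfl⟩
    have h2 := congrArg Subtype.val (hR0comm ⟨r, hr⟩ ⟨r', hr'⟩)
    rw [← map_mul, ← map_mul]
    exact congrArg φ h2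
  have hEp : ∀ a ∈ R₀.map φ, a ^ p = 1 := by
    rintro _ ⟨r, hr, rfl⟩
    have h5 := pow_card_eq_one' (G := R₀) (x := ⟨r, hr⟩)
    rw [h0] at h5
    have h6 : r ^ p = 1 := by simpa using congrArg Subtype.val h5
    rw [← map_pow, h6, map_one]
  refine ⟨(S : Subgroup G).map π, R₀.map φ, hPn, hPp, hmax, hEP, hEc, hEp, ?_⟩
  intro B hBP hBE _ hBp
  have hrangeφ : φ.range = (S : Subgroup G).map π := by
    rw [hφdef, MonoidHom.range_comp, Subgroup.range_subtype]
  have hmapcomap : (B.comap φ).map φ = B := by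
    rw [Subgroup.map_comap_eq, hrangeφ]
    exact inf_eq_right.mpr hBP
  have hcard : Nat.card (B.comap φ) = Nat.card B := by
    rw [← Subgroup.card_map_of_injective hφinj, hmapcomap]
  have hB'p : ∀ b ∈ B.comap φ, b ^ p = 1 := by
    intro b hb
    apply hφinj
    rw [map_pow, map_one]
    exact hBp _ hb
  have hB'c : B.comap φ ≤ Subgroup.centralizer (R₀ : Set ↥(S : Subgroup G)) := by
    intro b hb
    rw [Subgroup.mem_centralizer_iff]
    intro r hr
    apply hφinj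
    rw [map_mul, map_mul]
    exact (Subgroup.mem_centralizer_iff.mp (hBE hb)) (φ r) (Subgroup.mem_map_of_mem φ hr)
  rw [← hsup] at hB'c
  rw [← hcard]
  exact Cfsg.Agent.Lib.helper25.S1455Q1.narrow_count p R₀ R₁ (B.comap φ) h0 h1 hc hB'c hB'p

end Cfsg.Agent.Lib.helper25.S1455Q2
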