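import Mathlib
import Cfsg.Agent.Lib.helper25.SpUni4

set_option autoImplicit false
set_option linter.unusedSectionVars false
set_option linter.unusedSimpArgs false

namespace Cfsg.Agent.Lib.helper25.SpUni

open Matrix
open Cfsg.Agent.Lib.helper25.SLUni

variable {K : Type*} [Field K] [Finite K]

theorem exists_ne_zero_one (h3 : 3 ≤ Nat.card K) : ∃ c : K, c ≠ 0 ∧ c ≠ 1 := by
  classical
  by_contra hcon
  push Not at hcon
  have := Fintype.ofFinite K
  have h1 : Nat.card K ≤ 2 := by
    rw [Nat.card_eq_fintype_card]
    calc Fintype.card K = (Finset.univ : Finset K).card := rfl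
      _ ≤ ({0, 1} : Finset K).card := Finset.card_le_card (by
          intro x _
          by_cases hx : x = 0
          · simp [hx]
          · simp [hcon x hx])
      _ ≤ 2 := Finset.card_le_two
  omega

/-- No proper nontrivial subgroup of the unitriangular group is closed under fusion in `Sp`. -/
theorem strongly_closed_UUs {n : ℕ} (p : ℕ) [Fact p.Prime] [CharP K p]
    (hex : n = 0 → 3 ≤ Nat.card K)
    (T : Subgroup (Matrix.symplecticGroup (Fin (n + 2)) K)) (hTU : T ≤ UUs (n + 2) K)
    (hT0 : T ≠ ⊥)
    (hTc : ∀ t ∈ T, ∀ g : Matrix.symplecticGroup (Fin (n + 2)) K,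
      g * t * g⁻¹ ∈ UUs (n + 2) K → g * t * g⁻¹ ∈ T) : UUs (n + 2) K ≤ T := by
  have hUp : IsPGroup p (UUs (n + 2) K) := isPGroup_UUs p
  obtain ⟨z, hzT, hz1, hzc⟩ := Cfsg.Agent.Lib.helper25.exists_central_of_normal hUp hTU hT0
    (fun s hs t ht => hTc t ht s ((UUs (n + 2) K).mul_mem ((UUs (n + 2) K).mul_mem hs (hTU ht))
      ((UUs (n + 2) K).inv_mem hs)))
  obtain ⟨t, t', hs₀, rfl⟩ := central_form z (hTU hzT) hzc
  have h01 : (0 : Fin (n + 2)) ≠ 1 := Fin.zero_ne_one
  have h01' : (0 : Fin (n + 2)) < 1 := by
    rw [Fin.lt_def]
    simp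
  have hM0 : MT T (single 0 0 t + (single 0 1 t' + single 1 0 t')) := ⟨hs₀, hzT⟩
  -- a long root element in `T`
  have hA : ∃ i : Fin (n + 2), MT T (single i i 1) := by
    by_cases ht' : t' = 0
    · have ht : t ≠ 0 := by
        intro ht
        apply hz1
        apply Subtype.ext
        rw [uu_val, val_one']
        simp [ht, ht']
      refine ⟨0, ?_⟩
      have h1 := MT_smul hTc hM0 t⁻¹
      have e : t⁻¹ • (single 0 0 t + (single 0 1 t' + single 1 0 t')) =
          (single 0 0 1 : Matrix (Fin (n + 2)) (Fin (n + 2)) K) := by
        rw [ht']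
        simp [Matrix.smul_single, ht]
      exact (congrArg (MT T) e).mp h1
    · by_cases hn : n = 0
      · by_cases ht : t = 0
        · refine ⟨0, MT_long_of_short hTc h01' ?_⟩
          have h1 := MT_smul hTc hM0 t'⁻¹
          have e : t'⁻¹ • (single 0 0 t + (single 0 1 t' + single 1 0 t')) =
              (single 0 1 1 + single 1 0 1 : Matrix (Fin (n + 2)) (Fin (n + 2)) K) := by
            rw [ht]
            simp [Matrix.smul_single, ht']
          exact (congrArg (MT T) e).mp h1
        · obtain ⟨c, hc0, hc1⟩ := exists_ne_zero_one (hex hn)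
          refine ⟨1, ?_⟩
          have hD : ∀ c : K, MT T (((1 : Matrix (Fin (n + 2)) (Fin (n + 2)) K) + single 1 0 c) *
              (single 0 0 t + (single 0 1 t' + single 1 0 t')) *
              ((1 : Matrix (Fin (n + 2)) (Fin (n + 2)) K) + single 1 0 c)ᵀ -
              (single 0 0 t + (single 0 1 t' + single 1 0 t'))) := fun c =>
            MT_sub (MT_congr hTc hM0 (1 + single 1 0 c) (1 - single 0 1 c)
              (tv_transpose_mul h01.symm c)) hM0
          have h1 := MT_sub (hD c) (MT_smul hTc (hD 1) c)
          have e : ((1 : Matrix (Fin (n + 2)) (Fin (n + 2)) K) + single 1 0 c) *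
              (single 0 0 t + (single 0 1 t' + single 1 0 t')) *
              ((1 : Matrix (Fin (n + 2)) (Fin (n + 2)) K) + single 1 0 c)ᵀ -
              (single 0 0 t + (single 0 1 t' + single 1 0 t')) -
              c • (((1 : Matrix (Fin (n + 2)) (Fin (n + 2)) K) + single 1 0 1) *
              (single 0 0 t + (single 0 1 t' + single 1 0 t')) *
              ((1 : Matrix (Fin (n + 2)) (Fin (n + 2)) K) + single 1 0 (1 : K))ᵀ -
              (single 0 0 t + (single 0 1 t' + single 1 0 t'))) =
              (single 1 1 ((c ^ 2 - c) * t) : Matrix (Fin (n + 2)) (Fin (n + 2)) K) := by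
            rw [Matrix.transpose_add, Matrix.transpose_one, Matrix.transpose_single,
              Matrix.transpose_add, Matrix.transpose_one, Matrix.transpose_single]
            simp only [mul_add, add_mul, mul_one, one_mul, Matrix.single_mul_single_same,
              Matrix.single_mul_single_of_ne _ _ _ _ h01,
              Matrix.single_mul_single_of_ne _ _ _ _ h01.symm,
              add_zero, zero_add, mul_zero, zero_mul]
            simp only [sg]
            module
          have h1 := (congrArg (MT T) e).mp h1
          have h2 := MT_smul hTc h1 ((c ^ 2 - c) * t)⁻¹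
          have hne : (c ^ 2 - c) * t ≠ 0 := by
            apply mul_ne_zero _ ht
            have h3 : c ^ 2 - c = c * (c - 1) := by ring
            rw [h3]
            exact mul_ne_zero hc0 (sub_ne_zero.2 hc1)
          have e2 : ((c ^ 2 - c) * t)⁻¹ •
              (single 1 1 ((c ^ 2 - c) * t) : Matrix (Fin (n + 2)) (Fin (n + 2)) K) =
              (single 1 1 1 : Matrix (Fin (n + 2)) (Fin (n + 2)) K) := by
            rw [Matrix.smul_single, smul_eq_mul, inv_mul_cancel₀ hne]
          exact (congrArg (MT T) e2).mp h2
      · have hn1 : 2 < n + 2 := by omega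
        set c : Fin (n + 2) := ⟨2, hn1⟩ with hc
        have hc0 : c ≠ 0 := by
          intro h
          have := congrArg Fin.val h
          simp [hc] at this
        have hc1 : c ≠ 1 := by
          intro h
          have := congrArg Fin.val h
          simp [hc] at this
        have h0c : (0 : Fin (n + 2)) < c := Fin.pos_of_ne_zero hc0
        refine ⟨0, MT_long_of_short hTc h0c ?_⟩
        have h1 := MT_sub (MT_congr hTc hM0 (1 + single c 1 1) (1 - single 1 c 1)
          (tv_transpose_mul hc1 1)) hM0
        have e : ((1 : Matrix (Fin (n + 2)) (Fin (n + 2)) K) + single c 1 (1 : K)) *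
            (single 0 0 t + (single 0 1 t' + single 1 0 t')) *
            ((1 : Matrix (Fin (n + 2)) (Fin (n + 2)) K) + single c 1 (1 : K))ᵀ -
            (single 0 0 t + (single 0 1 t' + single 1 0 t')) =
            single 0 c t' + single c 0 t' := by
          rw [Matrix.transpose_add, Matrix.transpose_one, Matrix.transpose_single]
          simp only [mul_add, add_mul, mul_one, one_mul, Matrix.single_mul_single_same,
            Matrix.single_mul_single_of_ne _ _ _ _ h01,
            Matrix.single_mul_single_of_ne _ _ _ _ h01.symm,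
            Matrix.single_mul_single_of_ne _ _ _ _ hc0,
            Matrix.single_mul_single_of_ne _ _ _ _ hc0.symm,
            Matrix.single_mul_single_of_ne _ _ _ _ hc1,
            Matrix.single_mul_single_of_ne _ _ _ _ hc1.symm,
            add_zero, zero_add, mul_zero, zero_mul]
          simp only [sg]
          module
        have h1 := (congrArg (MT T) e).mp h1
        have h2 := MT_smul hTc h1 t'⁻¹
        have e2 : t'⁻¹ • (single 0 c t' + single c 0 t') =
            (single 0 c 1 + single c 0 1 : Matrix (Fin (n + 2)) (Fin (n + 2)) K) := by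
          simp [Matrix.smul_single, ht']
        exact (congrArg (MT T) e2).mp h2
  obtain ⟨i₀, hi₀⟩ := hA
  have hdiag : ∀ j : Fin (n + 2), MT T (single j j 1) := by
    intro j
    by_cases hj : i₀ = j
    · rw [← hj]
      exact hi₀
    · exact (MT_step hTc hj hi₀).1
  have hoff : ∀ i j : Fin (n + 2), i ≠ j → MT T (single i j 1 + single j i 1) :=
    fun i j hij => (MT_step hTc hij (hdiag i)).2
  have hadd : ∀ a b : Matrix (Fin (n + 2)) (Fin (n + 2)) K, MT T (a + aᵀ) → MT T (b + bᵀ) →
      MT T ((a + b) + (a + b)ᵀ) := by
    intro a b ha hb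
    have h1 := MT_add ha hb
    rwa [Matrix.transpose_add, add_add_add_comm]
  have hzero : MT T ((0 : Matrix (Fin (n + 2)) (Fin (n + 2)) K) + 0ᵀ) := by
    rw [Matrix.transpose_zero, add_zero]
    exact MT_zero
  have hP : ∀ u : Matrix (Fin (n + 2)) (Fin (n + 2)) K, MT T (u + uᵀ) := by
    intro u
    have key : MT T ((∑ i, ∑ j, single i j (u i j)) + (∑ i, ∑ j, single i j (u i j))ᵀ) := by
      refine Finset.sum_induction _ (fun v => MT T (v + vᵀ)) hadd hzero (fun i _ => ?_)
      refine Finset.sum_induction _ (fun v => MT T (v + vᵀ)) hadd hzero (fun j _ => ?_)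
      show MT T (single i j (u i j) + (single i j (u i j))ᵀ)
      rw [Matrix.transpose_single]
      by_cases hij : i = j
      · subst hij
        have h1 := MT_smul hTc (hdiag i) (u i i)
        rw [Matrix.smul_single, smul_eq_mul, mul_one] at h1
        exact MT_add h1 h1
      · have h1 := MT_smul hTc (hoff i j hij) (u i j)
        rw [smul_add, Matrix.smul_single, Matrix.smul_single, smul_eq_mul, mul_one] at h1
        exact h1
    rwa [← Matrix.matrix_eq_sum_single u] at key
  have hall : ∀ (s : Matrix (Fin (n + 2)) (Fin (n + 2)) K) (hs : sᵀ = s), uu s hs ∈ T := by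
    intro s hs
    have hsym : ∀ i j, s j i = s i j := fun i j => congrFun (congrFun hs i) j
    have hdec : s = ((Matrix.of fun i j => if i < j then s i j else 0) +
        (Matrix.of fun i j => if i < j then s i j else 0)ᵀ) +
        Matrix.diagonal (fun i => s i i) := by
      ext i j
      rw [Matrix.add_apply, Matrix.add_apply, Matrix.transpose_apply]
      show s i j = (if i < j then s i j else 0) + (if j < i then s j i else 0) +
        Matrix.diagonal (fun i => s i i) i j
      rcases lt_trichotomy i j with h | h | h
      · rw [if_pos h, if_neg (not_lt.2 h.le), Matrix.diagonal_apply_ne _ (ne_of_lt h)]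
        ring
      · subst h
        rw [if_neg (lt_irrefl _), Matrix.diagonal_apply_eq]
        ring
      · rw [if_neg (not_lt.2 h.le), if_pos h, Matrix.diagonal_apply_ne _ (ne_of_gt h), hsym]
        ring
    have hd : MT T (Matrix.diagonal (fun i => s i i)) := by
      have e : Matrix.diagonal (fun i => s i i) = ∑ i, single i i (s i i) := by
        ext k l
        rw [Matrix.sum_apply]
        by_cases hkl : k = l
        · subst hkl
          rw [Matrix.diagonal_apply_eq, Finset.sum_eq_single k]
          · rw [Matrix.single_apply_same]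
          · intro b _ hb
            exact Matrix.single_apply_of_ne _ _ _ _ _ (fun h => hb h.1)
          · intro h
            exact absurd (Finset.mem_univ k) h
        · rw [Matrix.diagonal_apply_ne _ hkl]
          symm
          apply Finset.sum_eq_zero
          intro b _
          exact Matrix.single_apply_of_ne _ _ _ _ _ (fun h => hkl (h.1.symm.trans h.2))
      rw [e]
      refine Finset.sum_induction _ (MT T) (fun a b => MT_add) MT_zero (fun i _ => ?_)
      have h1 := MT_smul hTc (hdiag i) (s i i)
      rwa [Matrix.smul_single, smul_eq_mul, mul_one] at h1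
    have h2 := MT_add (hP (Matrix.of fun i j => if i < j then s i j else 0)) hd
    rw [← hdec] at h2
    obtain ⟨hs', h3⟩ := h2
    exact h3
  have hlam : ∀ (i j : Fin (n + 2)) (hij : i < j) (r : K),
      lam (SpecialLinearGroup.transvection (ne_of_lt hij) r) ∈ T := by
    intro i j hij r
    have hne := ne_of_lt hij
    have h1 := hall _ (sym_pair i j r)
    have h2 : wj j * uu (single i j r + single j i r) (sym_pair i j r) * (wj j)⁻¹ =
        lam (SpecialLinearGroup.transvection hne r) := by
      rw [lam_tv, mul_inv_eq_iff_eq_mul]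
      exact wj_mul_uu hne r
    rw [← h2]
    apply hTc _ h1
    rw [h2]
    exact lam_mem_UUs _ (tv_mem_UU hij r)
  have hlamU : UU (n + 2) K ≤ T.comap lam := by
    refine UU_le_closure.trans ?_
    rw [Subgroup.closure_le]
    rintro _ ⟨i, j, hij, b, rfl⟩
    exact hlam i j hij b
  intro g hg
  obtain ⟨a, ha, s, hs, rfl⟩ := UUs_decomp g hg
  exact T.mul_mem (hlamU ha) (hall s hs)

end Cfsg.Agent.Lib.helper25.SpUni
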