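import Mathlib
import Cfsg.Agent.Lib.helper25.SpUni5

set_option autoImplicit false
set_option linter.unusedSectionVars false
set_option linter.unusedSimpArgs false

namespace Cfsg.Agent.Lib.helper25.SpUni

open Matrix
open Cfsg.Agent.Lib.helper25.SLUni

variable {m : ℕ} {K : Type*} [Field K] [Finite K]

/-- The negative of a symplectic matrix. -/
def negS (g : Matrix.symplecticGroup (Fin m) K) : Matrix.symplecticGroup (Fin m) K :=
  ⟨-g.1, SymplecticGroup.neg_mem g.2⟩

theorem mem_RW_sup_center (hm : 1 ≤ m) (w : Fin m ⊕ Fin m → ℕ)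
    (g : Matrix.symplecticGroup (Fin m) K) (c : K) (hc : c = 1 ∨ c = -1)
    (h : ∀ k l, w l ≤ w k →
      g.1 k l = c * (1 : Matrix (Fin m ⊕ Fin m) (Fin m ⊕ Fin m) K) k l) :
    g ∈ (RW w : Subgroup (Matrix.symplecticGroup (Fin m) K)) ⊔
      Subgroup.center (Matrix.symplecticGroup (Fin m) K) := by
  rcases hc with rfl | rfl
  · apply Subgroup.mem_sup_left
    intro k l hkl
    rw [h k l hkl, one_mul]
  · have h1 : g = negS g * negS 1 := by
      apply Subtype.ext
      show g.1 = (-g.1) * (-(1 : Matrix (Fin m ⊕ Fin m) (Fin m ⊕ Fin m) K))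
      rw [neg_mul_neg, Matrix.mul_one]
    rw [h1]
    refine Subgroup.mul_mem_sup ?_ ?_
    · intro k l hkl
      show (-g.1) k l = _
      rw [Matrix.neg_apply, h k l hkl]
      ring
    · rw [Cfsg.Agent.Lib.helper4.mem_center_sp_iff hm]
      exact Or.inr rfl

theorem single_mul_apply' (i j k l : Fin m) (c : K) (M : Matrix (Fin m) (Fin m) K) :
    (single i j c * M) k l = if k = i then c * M j l else 0 := by
  by_cases h : k = i
  · rw [if_pos h, h, Matrix.single_mul_apply_same]
  · rw [if_neg h, Matrix.single_mul_apply_of_ne _ _ _ _ _ h]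

theorem mul_single_apply' (i j k l : Fin m) (c : K) (M : Matrix (Fin m) (Fin m) K) :
    (M * single i j c) k l = if l = j then M k i * c else 0 := by
  by_cases h : l = j
  · rw [if_pos h, h, Matrix.mul_single_apply_same]
  · rw [if_neg h, Matrix.mul_single_apply_of_ne _ _ _ _ _ h]

theorem comm_uu (g : Matrix.symplecticGroup (Fin m) K) (s : Matrix (Fin m) (Fin m) K)
    (hs : sᵀ = s) (h : uu s hs * g = g * uu s hs) :
    s * g.1.toBlocks₂₁ = 0 ∧ g.1.toBlocks₁₁ * s = s * g.1.toBlocks₂₂ ∧
      g.1.toBlocks₂₁ * s = 0 := by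
  have h2 := congrArg Subtype.val h
  rw [val_mul', val_mul', uu_val, blocks_eq g, Matrix.fromBlocks_multiply,
    Matrix.fromBlocks_multiply, Matrix.fromBlocks_inj] at h2
  obtain ⟨e1, e2, -, e4⟩ := h2
  rw [Matrix.one_mul, Matrix.mul_one, Matrix.mul_zero, add_zero] at e1
  rw [Matrix.one_mul, Matrix.mul_one] at e2
  rw [Matrix.zero_mul, Matrix.one_mul, Matrix.mul_one, zero_add] at e4
  refine ⟨add_left_cancel (e1.trans (add_zero _).symm), ?_, ?_⟩
  · exact (add_left_cancel (e2.trans (add_comm _ _))).symm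
  · exact (add_right_cancel ((zero_add _).trans e4)).symm

theorem comm_lv (g : Matrix.symplecticGroup (Fin m) K) (a d : Matrix (Fin m) (Fin m) K)
    (had : aᵀ * d = 1) (h : lv a d had * g = g * lv a d had) :
    a * g.1.toBlocks₁₁ = g.1.toBlocks₁₁ * a ∧ a * g.1.toBlocks₁₂ = g.1.toBlocks₁₂ * d ∧
      d * g.1.toBlocks₂₂ = g.1.toBlocks₂₂ * d := by
  have h2 := congrArg Subtype.val h
  rw [val_mul', val_mul', lv_val, blocks_eq g, Matrix.fromBlocks_multiply,
    Matrix.fromBlocks_multiply, Matrix.fromBlocks_inj] at h2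
  obtain ⟨e1, e2, -, e4⟩ := h2
  simp only [Matrix.zero_mul, Matrix.mul_zero, add_zero, zero_add] at e1 e2 e4
  exact ⟨e1, e2, e4⟩

/-- The symplectic relation `AᵀD - CᵀB = 1`. -/
theorem symp_rel (g : Matrix.symplecticGroup (Fin m) K) :
    (g.1.toBlocks₁₁)ᵀ * g.1.toBlocks₂₂ - (g.1.toBlocks₂₁)ᵀ * g.1.toBlocks₁₂ = 1 := by
  have h := g.2
  rw [blocks_eq g, SymplecticGroup.fromBlocks_mem_iff] at h
  exact h.2.2

/-- The Siegel radical is self-centralizing modulo the centre. -/
theorem centralizer_QQ_le (hm : 1 ≤ m) :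
    Subgroup.centralizer (QQ m K : Set (Matrix.symplecticGroup (Fin m) K)) ≤
      QQ m K ⊔ Subgroup.center (Matrix.symplecticGroup (Fin m) K) := by
  intro g hg
  rw [Subgroup.mem_centralizer_iff] at hg
  have hC : ∀ i j, g.1.toBlocks₂₁ i j = 0 := by
    intro i j
    have h1 := (comm_uu g _ (sym_single i 1) (hg _ (uu_mem_QQ _ _))).1
    have h2 := congrFun (congrFun h1 i) j
    rw [single_mul_apply', if_pos rfl, one_mul] at h2
    exact h2
  have hA : ∀ i k, k ≠ i → g.1.toBlocks₁₁ k i = 0 := by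
    intro i k hki
    have h1 := (comm_uu g _ (sym_single i 1) (hg _ (uu_mem_QQ _ _))).2.1
    have h2 := congrFun (congrFun h1 k) i
    rw [single_mul_apply', mul_single_apply', if_pos rfl, if_neg hki, mul_one] at h2
    exact h2
  have hD : ∀ i l, l ≠ i → g.1.toBlocks₂₂ i l = 0 := by
    intro i l hli
    have h1 := (comm_uu g _ (sym_single i 1) (hg _ (uu_mem_QQ _ _))).2.1
    have h2 := congrFun (congrFun h1 i) l
    rw [single_mul_apply', mul_single_apply', if_pos rfl, if_neg hli, one_mul] at h2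
    exact h2.symm
  have hAD : ∀ i, g.1.toBlocks₁₁ i i = g.1.toBlocks₂₂ i i := by
    intro i
    have h1 := (comm_uu g _ (sym_single i 1) (hg _ (uu_mem_QQ _ _))).2.1
    have h2 := congrFun (congrFun h1 i) i
    rw [single_mul_apply', mul_single_apply', if_pos rfl, if_pos rfl, one_mul, mul_one] at h2
    exact h2
  have hAA : ∀ i j, i ≠ j → g.1.toBlocks₁₁ i i = g.1.toBlocks₂₂ j j := by
    intro i j hij
    have h1 := (comm_uu g _ (sym_pair i j 1) (hg _ (uu_mem_QQ _ _))).2.1
    have h2 := congrFun (congrFun h1 i) j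
    rw [Matrix.mul_add, Matrix.add_mul, Matrix.add_apply, Matrix.add_apply, single_mul_apply',
      single_mul_apply', mul_single_apply', mul_single_apply', if_pos rfl, if_pos rfl,
      if_neg hij.symm, if_neg hij, one_mul, mul_one, add_zero, add_zero] at h2
    exact h2
  set i₀ : Fin m := ⟨0, hm⟩ with hi₀
  set c := g.1.toBlocks₁₁ i₀ i₀ with hc
  have hAc : ∀ i, g.1.toBlocks₁₁ i i = c := by
    intro i
    by_cases hi : i = i₀
    · rw [hi]
    · rw [hAA i i₀ hi, ← hAD]
  have hDc : ∀ i, g.1.toBlocks₂₂ i i = c := fun i => by rw [← hAD, hAc]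
  have hcc : c * c = 1 := by
    have h1 := congrFun (congrFun (symp_rel g) i₀) i₀
    rw [Matrix.sub_apply, Matrix.one_apply_eq, Matrix.mul_apply, Matrix.mul_apply] at h1
    have h2 : ∑ j, (g.1.toBlocks₂₁)ᵀ i₀ j * g.1.toBlocks₁₂ j i₀ = 0 := by
      apply Finset.sum_eq_zero
      intro j _
      rw [Matrix.transpose_apply, hC, zero_mul]
    rw [h2, sub_zero, Finset.sum_eq_single i₀] at h1
    · rw [Matrix.transpose_apply, hDc] at h1
      exact h1
    · intro j _ hj
      rw [Matrix.transpose_apply, hA i₀ j hj, zero_mul]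
    · intro h
      exact absurd (Finset.mem_univ _) h
  apply mem_RW_sup_center hm (w1 m) g c (mul_self_eq_one_iff.1 hcc)
  intro k l hkl
  rw [one_blocks]
  rcases k with k | k <;> rcases l with l | l
  · show g.1.toBlocks₁₁ k l = c * (1 : Matrix (Fin m) (Fin m) K) k l
    by_cases h : k = l
    · rw [h, hAc, Matrix.one_apply_eq, mul_one]
    · rw [hA l k h, Matrix.one_apply_ne h, mul_zero]
  · exact absurd hkl (by simp [w1])
  · show g.1.toBlocks₂₁ k l = c * 0
    rw [hC, mul_zero]
  · show g.1.toBlocks₂₂ k l = c * (1 : Matrix (Fin m) (Fin m) K) k l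
    by_cases h : k = l
    · rw [h, hDc, Matrix.one_apply_eq, mul_one]
    · rw [hD k l (Ne.symm h), Matrix.one_apply_ne h, mul_zero]

theorem w2_inl_zero {n : ℕ} : w2 n (Sum.inl 0) = 0 := by
  show (if (0 : Fin (n + 2)) = 0 then 0 else 1) = 0
  exact if_pos rfl

theorem w2_inr_zero {n : ℕ} : w2 n (Sum.inr 0) = 2 := by
  show (if (0 : Fin (n + 2)) = 0 then 2 else 1) = 2
  exact if_pos rfl

theorem uu_mem_R2 {n : ℕ} (s : Matrix (Fin (n + 2)) (Fin (n + 2)) K) (hs : sᵀ = s)
    (h : ∀ i j, i ≠ 0 → j ≠ 0 → s i j = 0) : uu s hs ∈ R2 n K := by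
  rw [mem_R2]
  intro k l hkl
  rw [uu_val, one_blocks]
  rcases k with k | k <;> rcases l with l | l
  · rfl
  · show s k l = 0
    apply h
    · intro hk
      rw [hk] at hkl
      have h1 : w2 n (Sum.inl (0 : Fin (n + 2))) = 0 := w2_inl_zero
      have h2 : 1 ≤ w2 n (Sum.inr l) := by
        show 1 ≤ (if l = 0 then 2 else 1)
        split_ifs <;> omega
      omega
    · intro hl
      rw [hl] at hkl
      have h1 : w2 n (Sum.inr (0 : Fin (n + 2))) = 2 := w2_inr_zero
      have h2 : w2 n (Sum.inl k) ≤ 1 := by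
        show (if k = 0 then 0 else 1) ≤ 1
        split_ifs <;> omega
      omega
  · rfl
  · rfl

theorem lv_mem_R2 {n : ℕ} {j : Fin (n + 2)} (hj : (0 : Fin (n + 2)) ≠ j) (c : K) :
    lv (1 + single 0 j c) (1 - single j 0 c) (tv_transpose_mul hj c) ∈ R2 n K := by
  rw [mem_R2]
  intro k l hkl
  rw [lv_val, one_blocks]
  rcases k with k | k <;> rcases l with l | l
  · show (1 + single 0 j c : Matrix (Fin (n + 2)) (Fin (n + 2)) K) k l =
      (1 : Matrix (Fin (n + 2)) (Fin (n + 2)) K) k l
    rw [Matrix.add_apply, Matrix.single_apply_of_ne, add_zero]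
    intro h
    have hk : k = 0 := h.1.symm
    have hl : l = j := h.2.symm
    rw [hk, hl] at hkl
    have h1 : w2 n (Sum.inl (0 : Fin (n + 2))) = 0 := w2_inl_zero
    have h2 : w2 n (Sum.inl j) = 1 := if_neg (Ne.symm hj)
    omega
  · rfl
  · rfl
  · show (1 - single j 0 c : Matrix (Fin (n + 2)) (Fin (n + 2)) K) k l =
      (1 : Matrix (Fin (n + 2)) (Fin (n + 2)) K) k l
    rw [Matrix.sub_apply, Matrix.single_apply_of_ne, sub_zero]
    intro h
    have hk : k = j := h.1.symm
    have hl : l = 0 := h.2.symm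
    rw [hk, hl] at hkl
    have h1 : w2 n (Sum.inr (0 : Fin (n + 2))) = 2 := w2_inr_zero
    have h2 : w2 n (Sum.inr j) = 1 := if_neg (Ne.symm hj)
    omega

/-- The radical of the line stabiliser is self-centralizing modulo the centre. -/
theorem centralizer_R2_le {n : ℕ} :
    Subgroup.centralizer (R2 n K : Set (Matrix.symplecticGroup (Fin (n + 2)) K)) ≤
      R2 n K ⊔ Subgroup.center (Matrix.symplecticGroup (Fin (n + 2)) K) := by
  intro g hg
  rw [Subgroup.mem_centralizer_iff] at hg
  have h00 : uu (single (0 : Fin (n + 2)) 0 (1 : K)) (sym_single 0 1) ∈ R2 n K := by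
    apply uu_mem_R2
    intro i j hi hj
    exact Matrix.single_apply_of_ne _ _ _ _ _ (fun h => hi h.1.symm)
  have h0j : ∀ j : Fin (n + 2), (0 : Fin (n + 2)) ≠ j →
      uu (single (0 : Fin (n + 2)) j (1 : K) + single j 0 1) (sym_pair 0 j 1) ∈ R2 n K := by
    intro j hj
    apply uu_mem_R2
    intro a b ha hb
    rw [Matrix.add_apply, Matrix.single_apply_of_ne _ _ _ _ _ (fun h => ha h.1.symm),
      Matrix.single_apply_of_ne _ _ _ _ _ (fun h => hb h.2.symm), add_zero]
  have c1 := comm_uu g _ (sym_single 0 1) (hg _ h00)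
  -- consequences of commuting with `x_{2e_0}`
  have hC0 : ∀ l, g.1.toBlocks₂₁ 0 l = 0 := by
    intro l
    have h2 := congrFun (congrFun c1.1 0) l
    rw [single_mul_apply', if_pos rfl, one_mul] at h2
    exact h2
  have hCc : ∀ k, g.1.toBlocks₂₁ k 0 = 0 := by
    intro k
    have h2 := congrFun (congrFun c1.2.2 k) 0
    rw [mul_single_apply', if_pos rfl, mul_one] at h2
    exact h2
  have hA0 : ∀ k, k ≠ 0 → g.1.toBlocks₁₁ k 0 = 0 := by
    intro k hk
    have h2 := congrFun (congrFun c1.2.1 k) 0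
    rw [single_mul_apply', mul_single_apply', if_pos rfl, if_neg hk, mul_one] at h2
    exact h2
  have hD0 : ∀ l, l ≠ 0 → g.1.toBlocks₂₂ 0 l = 0 := by
    intro l hl
    have h2 := congrFun (congrFun c1.2.1 0) l
    rw [single_mul_apply', mul_single_apply', if_pos rfl, if_neg hl, one_mul] at h2
    exact h2.symm
  have hAD0 : g.1.toBlocks₁₁ 0 0 = g.1.toBlocks₂₂ 0 0 := by
    have h2 := congrFun (congrFun c1.2.1 0) 0
    rw [single_mul_apply', mul_single_apply', if_pos rfl, if_pos rfl, one_mul, mul_one] at h2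
    exact h2
  set c := g.1.toBlocks₁₁ 0 0 with hc
  -- consequences of commuting with `x_{e_0 - e_j}`
  have hAj : ∀ j : Fin (n + 2), j ≠ 0 → ∀ l, g.1.toBlocks₁₁ j l = if l = j then c else 0 := by
    intro j hj l
    have c2 := comm_lv g _ _ _ (hg _ (lv_mem_R2 (Ne.symm hj) 1))
    have h2 := congrFun (congrFun c2.1 0) l
    rw [Matrix.add_mul, Matrix.mul_add, Matrix.one_mul, Matrix.mul_one, Matrix.add_apply,
      Matrix.add_apply, single_mul_apply', mul_single_apply', if_pos rfl, one_mul, mul_one] at h2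
    exact add_left_cancel h2
  have hBj : ∀ j : Fin (n + 2), j ≠ 0 → ∀ l, l ≠ 0 → g.1.toBlocks₁₂ j l = 0 := by
    intro j hj l hl
    have c2 := comm_lv g _ _ _ (hg _ (lv_mem_R2 (Ne.symm hj) 1))
    have h2 := congrFun (congrFun c2.2.1 0) l
    rw [Matrix.add_mul, Matrix.mul_sub, Matrix.one_mul, Matrix.mul_one, Matrix.add_apply,
      Matrix.sub_apply, single_mul_apply', mul_single_apply', if_pos rfl, if_neg hl, one_mul,
      sub_zero] at h2
    have h3 := add_left_cancel (h2.trans (add_zero _).symm)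
    exact h3
  have hDj : ∀ j : Fin (n + 2), j ≠ 0 → g.1.toBlocks₂₂ j j = c := by
    intro j hj
    have c2 := comm_lv g _ _ _ (hg _ (lv_mem_R2 (Ne.symm hj) 1))
    have h2 := congrFun (congrFun c2.2.2 j) 0
    rw [Matrix.sub_mul, Matrix.mul_sub, Matrix.one_mul, Matrix.mul_one, Matrix.sub_apply,
      Matrix.sub_apply, single_mul_apply', mul_single_apply', if_pos rfl, if_pos rfl, one_mul,
      mul_one] at h2
    have h3 := sub_right_injective h2
    exact h3.symm.trans hAD0.symm
  -- consequences of commuting with `x_{e_0 + e_j}`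
  have hCj : ∀ j : Fin (n + 2), j ≠ 0 → ∀ l, g.1.toBlocks₂₁ j l = 0 := by
    intro j hj l
    have c3 := comm_uu g _ (sym_pair 0 j 1) (hg _ (h0j j (Ne.symm hj)))
    have h2 := congrFun (congrFun c3.1 0) l
    rw [Matrix.add_mul, Matrix.add_apply, single_mul_apply', single_mul_apply', if_pos rfl,
      if_neg (Ne.symm hj), one_mul, add_zero] at h2
    exact h2
  have hDjl : ∀ j : Fin (n + 2), j ≠ 0 → ∀ l, l ≠ 0 → l ≠ j → g.1.toBlocks₂₂ j l = 0 := by
    intro j hj l hl hlj
    have c3 := comm_uu g _ (sym_pair 0 j 1) (hg _ (h0j j (Ne.symm hj)))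
    have h2 := congrFun (congrFun c3.2.1 0) l
    rw [Matrix.add_mul, Matrix.mul_add, Matrix.add_apply, Matrix.add_apply, single_mul_apply',
      single_mul_apply', mul_single_apply', mul_single_apply', if_pos rfl, if_neg hlj,
      if_neg hl, if_neg (Ne.symm hj), one_mul, add_zero, add_zero] at h2
    exact h2.symm
  have hcc : c * c = 1 := by
    have h1 := congrFun (congrFun (symp_rel g) 0) 0
    rw [Matrix.sub_apply, Matrix.one_apply_eq, Matrix.mul_apply, Matrix.mul_apply] at h1
    have h2 : ∑ j, (g.1.toBlocks₂₁)ᵀ 0 j * g.1.toBlocks₁₂ j 0 = 0 := by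
      apply Finset.sum_eq_zero
      intro j _
      rw [Matrix.transpose_apply, hCc, zero_mul]
    rw [h2, sub_zero, Finset.sum_eq_single 0] at h1
    · rw [Matrix.transpose_apply, ← hAD0] at h1
      exact h1
    · intro j _ hj
      rw [Matrix.transpose_apply, hA0 j hj, zero_mul]
    · intro h
      exact absurd (Finset.mem_univ _) h
  apply mem_RW_sup_center (by omega) (w2 n) g c (mul_self_eq_one_iff.1 hcc)
  intro k l hkl
  rw [one_blocks]
  rcases k with k | k <;> rcases l with l | l
  · show g.1.toBlocks₁₁ k l = c * (1 : Matrix (Fin (n + 2)) (Fin (n + 2)) K) k l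
    by_cases hk : k = 0
    · subst hk
      by_cases hl : l = 0
      · subst hl
        rw [Matrix.one_apply_eq, mul_one]
      · exfalso
        have h1 : w2 n (Sum.inl (0 : Fin (n + 2))) = 0 := w2_inl_zero
        have h2 : w2 n (Sum.inl l) = 1 := if_neg hl
        omega
    · rw [hAj k hk l]
      by_cases h : l = k
      · rw [if_pos h, h, Matrix.one_apply_eq, mul_one]
      · rw [if_neg h, Matrix.one_apply_ne (Ne.symm h), mul_zero]
  · show g.1.toBlocks₁₂ k l = c * 0
    rw [mul_zero]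
    have hk : k ≠ 0 := by
      intro hk
      rw [hk] at hkl
      have h1 : w2 n (Sum.inl (0 : Fin (n + 2))) = 0 := w2_inl_zero
      have h2 : 1 ≤ w2 n (Sum.inr l) := by
        show 1 ≤ (if l = 0 then 2 else 1)
        split_ifs <;> omega
      omega
    have hl : l ≠ 0 := by
      intro hl
      rw [hl] at hkl
      have h1 : w2 n (Sum.inr (0 : Fin (n + 2))) = 2 := w2_inr_zero
      have h2 : w2 n (Sum.inl k) ≤ 1 := by
        show (if k = 0 then 0 else 1) ≤ 1
        split_ifs <;> omega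
      omega
    exact hBj k hk l hl
  · show g.1.toBlocks₂₁ k l = c * 0
    rw [mul_zero]
    by_cases hk : k = 0
    · rw [hk]
      exact hC0 l
    · exact hCj k hk l
  · show g.1.toBlocks₂₂ k l = c * (1 : Matrix (Fin (n + 2)) (Fin (n + 2)) K) k l
    by_cases hk : k = 0
    · subst hk
      by_cases hl : l = 0
      · subst hl
        rw [Matrix.one_apply_eq, mul_one]
        exact hAD0.symm
      · rw [hD0 l hl, Matrix.one_apply_ne (Ne.symm hl), mul_zero]
    · have hl : l ≠ 0 := by
        intro hl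
        rw [hl] at hkl
        have h1 : w2 n (Sum.inr (0 : Fin (n + 2))) = 2 := w2_inr_zero
        have h2 : w2 n (Sum.inr k) = 1 := if_neg hk
        omega
      by_cases h : l = k
      · rw [h, hDj k hk, Matrix.one_apply_eq, mul_one]
      · rw [hDjl k hk l hl h, Matrix.one_apply_ne (Ne.symm h), mul_zero]

end Cfsg.Agent.Lib.helper25.SpUni
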