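import Mathlib
import Cfsg.Prelude.Def_Classical
import Cfsg.Prelude.Def_FusionSystem
import Cfsg.Agent.Lib.helper25.SpUni6

set_option autoImplicit false
set_option linter.unusedSectionVars false
set_option linter.unusedSimpArgs false

namespace Cfsg.Agent.Lib.helper25.SpUni

open Matrix
open Cfsg.Agent.Lib.helper25.SLUni

variable {m : ℕ} {K : Type*} [Field K] [Finite K]

theorem order_of_mem_UUs (p : ℕ) [Fact p.Prime] [CharP K p]
    (u : Matrix.symplecticGroup (Fin m) K) (hu : u ∈ UUs m K) : ∃ k : ℕ, orderOf u = p ^ k := by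
  obtain ⟨k, hk⟩ := (IsPGroup.iff_orderOf.1 (isPGroup_UUs (m := m) (K := K) p)) ⟨u, hu⟩
  exact ⟨k, by rw [← hk, Subgroup.orderOf_mk]⟩

/-- The Levi subgroup `SL_m` is generated by `p`-elements normalizing the Siegel radical. -/
theorem lam_mem_closure {n : ℕ} (p : ℕ) [Fact p.Prime] [CharP K p]
    (a : SpecialLinearGroup (Fin (n + 2)) K) :
    lam a ∈ Subgroup.closure {y : Matrix.symplecticGroup (Fin (n + 2)) K |
      y ∈ Subgroup.normalizer (QQ (n + 2) K : Set (Matrix.symplecticGroup (Fin (n + 2)) K)) ∧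
      ∃ k : ℕ, orderOf y = p ^ k} := by
  have hp := (Fact.out : p.Prime)
  refine Cfsg.Agent.Lib.helper2.SLGen.transvection_induction
    (fun A => lam A ∈ Subgroup.closure {y : Matrix.symplecticGroup (Fin (n + 2)) K |
      y ∈ Subgroup.normalizer (QQ (n + 2) K : Set (Matrix.symplecticGroup (Fin (n + 2)) K)) ∧
      ∃ k : ℕ, orderOf y = p ^ k}) ?_ ?_ a
  · intro i j hij c
    apply Subgroup.subset_closure
    refine ⟨P1_le_normalizer (lam_mem_P1 _), ?_⟩
    obtain ⟨k, hk⟩ := tv_order p hij c
    have h1 : orderOf (lam (SpecialLinearGroup.transvection hij c)) ∣ p ^ k := by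
      rw [← hk]
      exact orderOf_map_dvd lam _
    obtain ⟨j', -, hj'⟩ := (Nat.dvd_prime_pow hp).1 h1
    exact ⟨j', hj'⟩
  · intro A B hA hB
    show lam (A * B) ∈ _
    rw [map_mul]
    exact Subgroup.mul_mem _ hA hB

/-- The generation hypothesis of the simplicity criterion for the unitriangular group. -/
theorem gen_UUs {n : ℕ} (p : ℕ) [Fact p.Prime] [CharP K p] :
    Subgroup.normalizer (UUs (n + 2) K : Set (Matrix.symplecticGroup (Fin (n + 2)) K)) ≤
      Subgroup.closure {x : Matrix.symplecticGroup (Fin (n + 2)) K |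
        x ∈ Subgroup.normalizer (UUs (n + 2) K : Set (Matrix.symplecticGroup (Fin (n + 2)) K)) ∧
        ∃ R : Subgroup (Matrix.symplecticGroup (Fin (n + 2)) K), R ≤ UUs (n + 2) K ∧
          UUs (n + 2) K ≤ Subgroup.normalizer (R : Set (Matrix.symplecticGroup (Fin (n + 2)) K)) ∧
          Subgroup.centralizer (R : Set (Matrix.symplecticGroup (Fin (n + 2)) K)) ≤
            R ⊔ Subgroup.center (Matrix.symplecticGroup (Fin (n + 2)) K) ∧
          x ∈ Subgroup.closure {y : Matrix.symplecticGroup (Fin (n + 2)) K |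
            y ∈ Subgroup.normalizer (R : Set (Matrix.symplecticGroup (Fin (n + 2)) K)) ∧
            ∃ k : ℕ, orderOf y = p ^ k}} := by
  intro γ hγ
  obtain ⟨δ, u, hu, rfl⟩ := BBs_decomp γ (normalizer_UUs_le_BBs hγ)
  apply Subgroup.mul_mem
  · have hl : n + 1 < n + 2 := by omega
    set l : Fin (n + 2) := ⟨n + 1, hl⟩ with hldef
    have hl0 : (0 : Fin (n + 2)) ≠ l := by
      intro h
      have := congrArg Fin.val h
      simp [hldef] at this
    set π : Kˣ := ∏ i, δ i with hπ
    set ε : Fin (n + 2) → Kˣ := fun i => if i = l then π else 1 with hε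
    have h1 : tor δ = tor (δ * ε⁻¹) * tor ε := by
      rw [← tor_mul, inv_mul_cancel_right]
    rw [h1]
    apply Subgroup.mul_mem
    · have hprod : ∏ i, (δ * ε⁻¹) i = 1 := by
        have h2 : ∏ i, ε i = π := by
          rw [hε]
          simp
        simp only [Pi.mul_apply, Pi.inv_apply, Finset.prod_mul_distrib, Finset.prod_inv_distrib]
        rw [h2, ← hπ, mul_inv_cancel]
      obtain ⟨a, ha⟩ := tor_eq_lam _ hprod
      apply Subgroup.subset_closure
      refine ⟨BBs_le_normalizer (tor_mem_BBs _), QQ (n + 2) K, QQ_le_UUs,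
        UUs_le_P1.trans P1_le_normalizer, centralizer_QQ_le (by omega), ?_⟩
      rw [ha]
      exact lam_mem_closure p a
    · apply Subgroup.subset_closure
      refine ⟨BBs_le_normalizer (tor_mem_BBs _), R2 n K, R2_le_UUs,
        UUs_le_P2.trans P2_le_normalizer, centralizer_R2_le, ?_⟩
      rw [← torus_rel l π]
      have hx : ∀ f : Fin (n + 2) → K, xd f ∈
          Subgroup.closure {y : Matrix.symplecticGroup (Fin (n + 2)) K |
            y ∈ Subgroup.normalizer (R2 n K : Set (Matrix.symplecticGroup (Fin (n + 2)) K)) ∧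
            ∃ k : ℕ, orderOf y = p ^ k} := fun f =>
        Subgroup.subset_closure ⟨(UUs_le_P2.trans P2_le_normalizer) (QQ_le_UUs (uu_mem_QQ _ _)),
          order_of_mem_UUs p _ (QQ_le_UUs (uu_mem_QQ _ _))⟩
      have hy : ∀ f : Fin (n + 2) → K, f 0 = 0 → yd f ∈
          Subgroup.closure {y : Matrix.symplecticGroup (Fin (n + 2)) K |
            y ∈ Subgroup.normalizer (R2 n K : Set (Matrix.symplecticGroup (Fin (n + 2)) K)) ∧
            ∃ k : ℕ, orderOf y = p ^ k} := fun f hf =>
        Subgroup.subset_closure ⟨P2_le_normalizer (yd_mem_P2 f hf), lw_order p _ _⟩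
      exact Subgroup.mul_mem _ (Subgroup.mul_mem _ (Subgroup.mul_mem _ (hx _)
        (hy _ (if_neg hl0))) (hx _)) (Subgroup.mul_mem _ (Subgroup.mul_mem _ (hx _)
        (hy _ (if_neg hl0))) (hx _))
  · apply Subgroup.subset_closure
    refine ⟨Subgroup.le_normalizer hu, QQ (n + 2) K, QQ_le_UUs,
      UUs_le_P1.trans P1_le_normalizer, centralizer_QQ_le (by omega), ?_⟩
    apply Subgroup.subset_closure
    exact ⟨(UUs_le_P1.trans P1_le_normalizer) hu, order_of_mem_UUs p u hu⟩

end Cfsg.Agent.Lib.helper25.SpUni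

namespace Cfsg.Agent.Lib.helper25

open Cfsg.Agent.Lib.helper25.SpUni

set_option synthInstance.maxHeartbeats 400000 in
set_option maxHeartbeats 1000000 in
/-- The defining-characteristic fusion system of `PSp_{2m}(K)`, `m ≥ 2`, is simple
(excluding `PSp_4(2)`). -/
theorem psp_fusion_simple {K : Type*} [Field K] [Fintype K] (p : ℕ) [Fact p.Prime] [CharP K p]
    (n : ℕ) (hex : n = 0 → 3 ≤ Fintype.card K) (S : Sylow p (Cfsg.PSp (n + 2) K)) :
    (Cfsg.groupFusionSystem (S : Subgroup (Cfsg.PSp (n + 2) K))).IsSimple p := by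
  have hp := (Fact.out : p.Prime)
  set π : Matrix.symplecticGroup (Fin (n + 2)) K →* Cfsg.PSp (n + 2) K :=
    QuotientGroup.mk' (Subgroup.center (Matrix.symplecticGroup (Fin (n + 2)) K)) with hπ
  have hπker : π.ker = Subgroup.center (Matrix.symplecticGroup (Fin (n + 2)) K) :=
    QuotientGroup.ker_mk' _
  have hπsurj : Function.Surjective π := QuotientGroup.mk'_surjective _
  have hinj : Function.Injective (π.comp (UUs (n + 2) K).subtype) := by
    rw [injective_iff_map_eq_one]
    intro x hx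
    have h1 : (x : Matrix.symplecticGroup (Fin (n + 2)) K) ∈ π.ker := hx
    rw [hπker] at h1
    exact Subtype.ext (UUs_inf_center (by omega) _ x.2 h1)
  have hcardU : Nat.card ((UUs (n + 2) K).map π) = Nat.card (UUs (n + 2) K) := by
    have h1 : (UUs (n + 2) K).map π = (π.comp (UUs (n + 2) K).subtype).range := by
      rw [MonoidHom.range_comp, Subgroup.range_subtype]
    rw [h1]
    exact (Nat.card_congr (MonoidHom.ofInjective hinj).toEquiv).symm
  have hcard : Nat.card ((UUs (n + 2) K).map π) =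
      p ^ (Nat.card (Cfsg.PSp (n + 2) K)).factorization p := by
    rw [hcardU, card_UUs, card_sylow_PSp p (n + 2) (by omega), Nat.card_eq_fintype_card]
  obtain ⟨g, hg⟩ := MulAction.exists_smul_eq (Cfsg.PSp (n + 2) K)
    (Sylow.ofCard _ hcard) S
  set φ : Matrix.symplecticGroup (Fin (n + 2)) K →* Cfsg.PSp (n + 2) K :=
    (MulAut.conj g).toMonoidHom.comp π with hφ
  have hφapp : ∀ x, φ x = g * π x * g⁻¹ := fun x => rfl
  have hφker : φ.ker = Subgroup.center (Matrix.symplecticGroup (Fin (n + 2)) K) := by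
    ext x
    have hx : x ∈ π.ker ↔ x ∈ Subgroup.center (Matrix.symplecticGroup (Fin (n + 2)) K) := by
      rw [hπker]
    rw [← hx, MonoidHom.mem_ker, MonoidHom.mem_ker, hφapp]
    constructor
    · intro h
      have : π x = g⁻¹ * (g * π x * g⁻¹) * g := by group
      rw [this, h]
      group
    · intro h
      rw [h]
      group
  have hφsurj : Function.Surjective φ := by
    intro y
    obtain ⟨x, hx⟩ := hπsurj (g⁻¹ * y * g)
    refine ⟨x, ?_⟩
    rw [hφapp, hx]
    group
  have hS : (S : Subgroup (Cfsg.PSp (n + 2) K)) = (UUs (n + 2) K).map φ := by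
    rw [← hg, Sylow.coe_subgroup_smul]
    ext x
    rw [Subgroup.mem_pointwise_smul_iff_inv_smul_mem, MulAut.smul_def, MulAut.conj_inv_apply]
    constructor
    · rintro ⟨u, hu, hux⟩
      refine ⟨u, hu, ?_⟩
      rw [hφapp, hux]
      group
    · rintro ⟨u, hu, rfl⟩
      refine ⟨u, hu, ?_⟩
      rw [hφapp]
      group
  have hcop : (Nat.card φ.ker).Coprime p := by
    rw [hφker, Cfsg.Agent.Lib.helper4.card_center_sp (F := K) rfl (n + 2) (by omega)]
    obtain ⟨f, -, hq⟩ := FiniteField.card K p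
    have hq2 : 2 ≤ Fintype.card K := Fintype.one_lt_card
    have hpq : p ∣ Fintype.card K := by
      rw [hq]
      exact dvd_pow_self p f.pos.ne'
    rw [Nat.coprime_comm, Nat.Prime.coprime_iff_not_dvd hp]
    intro h
    have h1 : p ∣ Fintype.card K - 1 := dvd_trans h (Nat.gcd_dvd_right _ _)
    have h2 : p ∣ 1 := by
      have := Nat.dvd_sub hpq h1
      rwa [Nat.sub_sub_self (by omega)] at this
    exact hp.one_lt.ne' (Nat.dvd_one.1 h2)
  have hex' : n = 0 → 3 ≤ Nat.card K := by
    intro hn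
    rw [Nat.card_eq_fintype_card]
    exact hex hn
  apply isSimple_groupFusion_of_cover p φ hφsurj (hφker.le) hcop (UUs (n + 2) K)
    (isPGroup_UUs p) (UUs_ne_bot (by omega)) S hS (strongly_closed_UUs p hex')
  rw [hφker]
  exact gen_UUs p

end Cfsg.Agent.Lib.helper25
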