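import Mathlib
import Cfsg.Agent.Lib.helper25.SzOut2
import Cfsg.Agent.Lib.helper25.SzAut5
import Cfsg.Prelude.Def_KGroupFacts

/-!
# Automorphisms of the Suzuki groups: conclusion (library, seat helper25)
-/

set_option autoImplicit false
set_option linter.unusedSectionVars false
set_option linter.unusedSimpArgs false
set_option linter.style.haveILetI false

namespace Cfsg.Agent.Lib.helper25.SzOut

open Cfsg.Agent.Lib.helper2.Suzuki Cfsg.Agent.Lib.helper25.SzAut
open Cfsg.Agent.Lib.helper2.Ovoid (N)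

variable {F : Type*} [Field F] [Fintype F] {s : ℕ} (H : Hyp F s)

/-- First normalization: after an inner automorphism the translations are preserved. -/
theorem norm1 (r : ℕ) (hr : 1 ≤ r) (hq : Fintype.card F = 2 ^ r) (φ : MulAut ↥(Gs F s)) :
    ∃ g : ↥(Gs F s), PresU H (MulAut.conj g * φ) := by
  haveI : Fact (Nat.Prime 2) := ⟨Nat.prime_two⟩
  haveI : Finite ↥(Gs F s) := Finite.of_injective _ Subtype.val_injective
  have eUK : ↥((Us H).subgroupOf (Gs F s)) ≃* ↥(Us H) := Subgroup.subgroupOfEquivOfLe (Us_le_Gs H)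
  have hcardUK : Nat.card ↥((Us H).subgroupOf (Gs F s)) = 2 ^ (2 * r) := by
    rw [Nat.card_congr eUK.toEquiv, card_U H, hq, ← pow_mul, mul_comm]
  have hp : IsPGroup 2 ↥((Us H).subgroupOf (Gs F s)) := IsPGroup.of_card hcardUK
  have hidx : ¬ 2 ∣ ((Us H).subgroupOf (Gs F s)).index := by
    have h1 := Subgroup.card_mul_index ((Us H).subgroupOf (Gs F s))
    rw [hcardUK, card_Gs H, hq] at h1
    have e : (2 ^ r) ^ 2 = 2 ^ (2 * r) := by rw [← pow_mul, mul_comm]
    rw [e, mul_assoc] at h1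
    have h2 : ((Us H).subgroupOf (Gs F s)).index = (2 ^ (2 * r) + 1) * (2 ^ r - 1) :=
      Nat.eq_of_mul_eq_mul_left (by positivity) h1
    rw [h2]
    have hodd : Odd ((2 ^ (2 * r) + 1) * (2 ^ r - 1)) := by
      apply Odd.mul
      · exact Even.add_one (Even.pow_of_ne_zero even_two (by omega))
      · exact Nat.Even.sub_odd (Nat.one_le_two_pow) (Even.pow_of_ne_zero even_two (by omega))
          odd_one
    intro hd
    exact (Nat.not_even_iff_odd.2 hodd) (even_iff_two_dvd.2 hd)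
  let Q : Sylow 2 ↥(Gs F s) := hp.toSylow hidx
  have hQ : (Q : Subgroup ↥(Gs F s)) = (Us H).subgroupOf (Gs F s) := rfl
  obtain ⟨g, hg⟩ := MulAction.exists_smul_eq ↥(Gs F s) Q (φ • Q)
  refine ⟨g⁻¹, ?_⟩
  intro a b
  have h1 : tG H a b ∈ (Q : Subgroup ↥(Gs F s)) := by
    rw [hQ]; exact ⟨a, b, rfl⟩
  have h2 : φ (tG H a b) ∈ ((φ • Q : Sylow 2 ↥(Gs F s)) : Subgroup ↥(Gs F s)) := by
    rw [Sylow.pointwise_smul_def]
    exact Subgroup.smul_mem_pointwise_smul _ φ _ h1
  rw [← hg, Sylow.coe_subgroup_smul, Subgroup.mem_pointwise_smul_iff_inv_smul_mem] at h2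
  have h3 : (MulAut.conj g)⁻¹ • φ (tG H a b) = g⁻¹ * φ (tG H a b) * g := rfl
  rw [h3, hQ] at h2
  obtain ⟨a', b', h4⟩ := h2
  refine ⟨a', b', ?_⟩
  rw [MulAut.mul_apply, MulAut.conj_apply, inv_inv]
  exact Subtype.ext h4

/-- Third normalization: trivial action on first coordinates. -/
theorem norm3 {φ : MulAut ↥(Gs F s)} (hU : PresU H φ) :
    ∃ (l : Fˣ) (σ : F ≃+* F),
      ∀ a b, ∃ b', (Phi H σ.symm * (MulAut.conj (eG H l))⁻¹ * φ) (tG H a b) = tG H a b' := by
  haveI := (coordUs H).finite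
  have hmem : ∀ x : ↥(Us H), (φ ⟨x.1, Us_le_Gs H x.2⟩).1 ∈ Us H := by
    rintro ⟨_, a, b, rfl⟩
    obtain ⟨a', b', h⟩ := hU a b
    exact ⟨a', b', congrArg Subtype.val h⟩
  let f : ↥(Us H) →* ↥(Us H) :=
    { toFun := fun x => ⟨(φ ⟨x.1, Us_le_Gs H x.2⟩).1, hmem x⟩
      map_one' := by
        apply Subtype.ext
        show (φ 1).1 = 1
        rw [map_one]; rfl
      map_mul' := by
        intro x y
        apply Subtype.ext
        show (φ (⟨x.1, Us_le_Gs H x.2⟩ * ⟨y.1, Us_le_Gs H y.2⟩)).1 = _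
        rw [map_mul]; rfl }
  have hfi : Function.Injective f := by
    intro x y hxy
    have h1 : (φ ⟨x.1, Us_le_Gs H x.2⟩).1 = (φ ⟨y.1, Us_le_Gs H y.2⟩).1 :=
      congrArg (fun z : ↥(Us H) => z.1) hxy
    have h2 := φ.injective (Subtype.ext h1)
    exact Subtype.ext (congrArg (fun z : ↥(Gs F s) => z.1) h2)
  let φU : ↥(Us H) ≃* ↥(Us H) := MulEquiv.ofBijective f ⟨hfi, Finite.surjective_of_injective hfi⟩
  obtain ⟨μ, σ, hμ, hA⟩ := (coordUs H).aut_semilin H φU
  obtain ⟨l, hl⟩ := exists_sqrt_unit H (Units.mk0 μ hμ)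
  have hl' : (l : F) ^ 2 = μ := by
    have := congrArg (fun u : Fˣ => (u : F)) hl
    simpa using this
  have key : ∀ a b, ∃ b', φ (tG H a b) = tG H (μ * σ a) b' := by
    intro a b
    obtain ⟨a', b', h⟩ := hU a b
    have h1 := hA ⟨tS s a b, a, b, rfl⟩
    have h2 : (coordUs H).A (φU ⟨tS s a b, a, b, rfl⟩) = a' := by
      show (φ (tG H a b)).1.val 2 3 = a'
      rw [h]
      exact tS_23 a' b'
    have h3 : (coordUs H).A (⟨tS s a b, a, b, rfl⟩ : ↥(Us H)) = a := tS_23 a b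
    rw [h2, h3] at h1
    exact ⟨b', by rw [h, h1]⟩
  refine ⟨l, σ, fun a b => ?_⟩
  obtain ⟨b', hb'⟩ := key a b
  rw [MulAut.mul_apply, MulAut.mul_apply, hb', MulAut.conj_inv_apply]
  have e : (eG H l)⁻¹ * tG H (μ * σ a) b' * eG H l
      = eG H l⁻¹ * tG H (μ * σ a) b' * (eG H l⁻¹)⁻¹ := by
    rw [eG_inv, eG_inv, inv_inv]
  rw [e, eG_conj, Phi_tG]
  refine ⟨σ.symm (((l⁻¹ : Fˣ) : F) ^ (2 * s + 2) * b'), ?_⟩
  have e2 : σ.symm (((l⁻¹ : Fˣ) : F) ^ 2 * (μ * σ a)) = a := by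
    rw [Units.val_inv_eq_inv_val, inv_pow, hl', ← mul_assoc, inv_mul_cancel₀ hμ, one_mul,
      RingEquiv.symm_apply_apply]
  rw [e2]

/-- Every automorphism is inner times a field automorphism. -/
theorem aut_decomp (r : ℕ) (hr : 1 ≤ r) (hq : Fintype.card F = 2 ^ r) (φ : MulAut ↥(Gs F s)) :
    ∃ (g : ↥(Gs F s)) (σ : F ≃+* F), φ = MulAut.conj g * Phi H σ := by
  obtain ⟨g1, h1⟩ := norm1 H r hr hq φ
  obtain ⟨u, l0, h2, h2w⟩ := norm2 H h1
  obtain ⟨l, σ, h3⟩ := norm3 H h2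
  set φ3 := Phi H σ.symm * (MulAut.conj (eG H l))⁻¹ * (MulAut.conj u * (MulAut.conj g1 * φ))
    with hφ3
  have h3w : ∃ l1, φ3 (wG H) = wG H * eG H l1 := by
    rw [hφ3, MulAut.mul_apply, MulAut.mul_apply, h2w, MulAut.conj_inv_apply]
    have e1 : (eG H l)⁻¹ * wG H = wG H * eG H l := by
      have := wG_eG H l
      rw [eG_inv, ← this]
      have e2 : wG H * eG H l * wG H * wG H = wG H * eG H l * (wG H * wG H) := by group
      rw [e2, wG_sq, mul_one]
    have e3 : (eG H l)⁻¹ * (wG H * eG H l0) * eG H l = wG H * eG H (l * l0 * l) := by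
      rw [← mul_assoc, e1, mul_assoc, mul_assoc, eG_mul, eG_mul, mul_assoc]
    rw [e3, map_mul, Phi_wG, Phi_eG]
    exact ⟨_, rfl⟩
  obtain ⟨hT, hE⟩ := norm4 H h3 h3w
  have h5 := norm5 H hT hE h3w
  refine ⟨g1⁻¹ * u⁻¹ * eG H l, σ, ?_⟩
  have hΦ : (Phi H σ.symm)⁻¹ = Phi H σ := inv_eq_of_mul_eq_one_right (Phi_symm_mul H σ)
  have e : φ = (MulAut.conj g1)⁻¹ * (MulAut.conj u)⁻¹ * MulAut.conj (eG H l) * (Phi H σ.symm)⁻¹ * φ3 := by
    rw [hφ3]; group
  rw [e, h5, mul_one, hΦ, map_mul, map_mul, map_inv, map_inv]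

include H in
/-- The order of the automorphism group. -/
theorem card_aut (r : ℕ) (hr : 1 ≤ r) (hq : Fintype.card F = 2 ^ r) :
    Nat.card (MulAut ↥(Gs F s)) = Nat.card ↥(Gs F s) * r := by
  haveI : CharP F 2 := CharTwo.of_one_ne_zero_of_two_eq_zero one_ne_zero H.h2
  let Ψ : ↥(Gs F s) × (F ≃+* F) → MulAut ↥(Gs F s) := fun p => MulAut.conj p.1 * Phi H p.2
  have hbij : Function.Bijective Ψ := by
    constructor
    · rintro ⟨g, σ⟩ ⟨g', σ'⟩ h
      have h' : MulAut.conj g * Phi H σ = MulAut.conj g' * Phi H σ' := h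
      obtain ⟨rfl, rfl⟩ := inj_aux H h'
      rfl
    · intro φ
      obtain ⟨g, σ, h⟩ := aut_decomp H r hr hq φ
      exact ⟨(g, σ), h.symm⟩
  rw [← Nat.card_eq_of_bijective Ψ hbij, Nat.card_prod, szcard_ringAut r hq]

include H in
/-- The centre is trivial. -/
theorem center_eq_bot : Subgroup.center ↥(Gs F s) = ⊥ := by
  rw [eq_bot_iff]
  intro g hg
  rw [Subgroup.mem_center_iff] at hg
  have h : MulAut.conj g * Phi H (RingEquiv.refl F) = MulAut.conj 1 * Phi H (RingEquiv.refl F) := by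
    congr 1
    apply MulEquiv.ext
    intro x
    rw [MulAut.conj_apply, map_one, MulAut.one_apply, ← hg x, mul_assoc, mul_inv_cancel, mul_one]
  exact (inj_aux H h).1

end Cfsg.Agent.Lib.helper25.SzOut

namespace Cfsg.Agent.Lib.helper25.SzOut

/-- The order of the outer automorphism group from the order of the automorphism group. -/
theorem card_out_of_card_aut {G : Type*} [Group G] [Finite G] (hc : Subgroup.center G = ⊥) (n : ℕ)
    (h : Nat.card (MulAut G) = Nat.card G * n) : Nat.card (Cfsg.Out G) = n := by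
  haveI : Finite (MulAut G) := by
    have : Function.Injective (fun α : MulAut G => (α : G → G)) := by
      intro α β h
      exact MulEquiv.ext (congrFun h)
    exact Finite.of_injective _ this
  have hinj : Function.Injective (MulAut.conj : G →* MulAut G) := by
    rw [← MonoidHom.ker_eq_bot_iff, eq_bot_iff]
    intro g hg
    rw [← hc, Subgroup.mem_center_iff]
    intro x
    have := congrArg (fun ψ : MulAut G => ψ x) (MonoidHom.mem_ker.1 hg)
    simp only [MulAut.conj_apply, MulAut.one_apply] at this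
    calc x * g = g * x * g⁻¹ * g := by rw [this]
      _ = g * x := by group
  have h1 : Nat.card (Cfsg.Inn G) = Nat.card G :=
    (Nat.card_congr (MonoidHom.ofInjective hinj).toEquiv).symm
  have h2 := Subgroup.card_mul_index (Cfsg.Inn G)
  rw [h1, h] at h2
  have h3 : (Cfsg.Inn G).index = n := Nat.eq_of_mul_eq_mul_left Nat.card_pos h2
  rw [← h3]
  rfl

end Cfsg.Agent.Lib.helper25.SzOut
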